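import Cfsg.Agent.GW.D8A6
import Cfsg.Agent.Small.A7b
import Cfsg.Agent.Small.PermP
import Cfsg.Agent.Small.Brauer3
import Cfsg.Agent.Solv.MinNormal
import Cfsg.Agent.S0144

/-! The simple group of order 168 (helper9): `IsD8` facts on four-groups (`four_cases`, `klein_four`,
`eq_four`, `normalizer_range`, `not_conj_four`, `exists_conj_four`, `elem_cases`), and for `G` simple of
order 168: `G168.orderOf_cases`, `exists_isD8`, `defOne`, `card_E3`, `card_E7`, `card_sylow`, `coatom_cases`. -/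

set_option autoImplicit false

namespace Cfsg.Agent.Small

open Cfsg Cfsg.Agent.Invol Cfsg.Agent.GW Subgroup DihedralGroup
open Cfsg.Agent.GW.IsD8 (four)

variable {G : Type*} [Group G]

theorem exists_smul_of_le [Finite G] {p : ℕ} [Fact p.Prime] (P Q : Sylow p G) {H : Subgroup G}
    (hP : (P : Subgroup G) ≤ H) (hQ : (Q : Subgroup G) ≤ H) : ∃ n ∈ H, n • P = Q := by
  obtain ⟨n, hn⟩ := MulAction.exists_smul_eq H (P.subtype hP) (Q.subtype hQ)
  rw [Sylow.smul_subtype] at hn
  exact ⟨n, n.2, Sylow.subtype_injective hn⟩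

namespace D8

variable {φ : DihedralGroup 4 →* G}

theorem four_swap (i : ZMod 4) : four (φ.comp swapHom) i = four φ (i + 1) := rfl

theorem four_conj (g : G) (i : ZMod 4) :
    four ((MulAut.conj g).toMonoidHom.comp φ) i = (four φ i).map (MulAut.conj g).toMonoidHom := by
  ext x
  simp only [mem_map_conj_iff, four, mem_inf, mem_centralizer_singleton_iff, MonoidHom.comp_apply,
    MulEquiv.coe_toMonoidHom, MulAut.conj_apply]
  have : ∀ a : G, x * (g * a * g⁻¹) = g * a * g⁻¹ * x ↔ g⁻¹ * x * g * a = a * (g⁻¹ * x * g) :=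
    fun a => ⟨fun h => by calc _ = g⁻¹ * (x * (g * a * g⁻¹)) * g := by group
      _ = _ := by rw [h]; group, fun h => by
      calc _ = g * (g⁻¹ * x * g * a) * g⁻¹ := by group
        _ = _ := by rw [h]; group⟩
  rw [this, this]

theorem range_conj (g : G) : ((MulAut.conj g).toMonoidHom.comp φ).range =
    φ.range.map (MulAut.conj g).toMonoidHom := MonoidHom.range_comp _ _

theorem range_swap : (φ.comp swapHom).range = φ.range := by
  ext x
  constructor
  · rintro ⟨d, rfl⟩
    exact ⟨_, rfl⟩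
  · rintro ⟨d | d, rfl⟩
    · exact ⟨r d, rfl⟩
    · exact ⟨sr (d - 1), by rw [MonoidHom.comp_apply, swapHom_sr, sub_add_cancel]⟩

variable (h : IsD8 φ)
include h

theorem four_eq (i : ZMod 4) : four φ i = (centralizer ({sr i} : Set (DihedralGroup 4))).map φ := by
  ext x
  simp only [h.mem_four, mem_map, mem_centralizer_singleton_iff]

theorem four_cases (i : ZMod 4) : four φ i = four φ 0 ∨ four φ i = four φ 1 := by
  have key : ∀ i : ZMod 4, (∀ d : DihedralGroup 4, d * sr i = sr i * d ↔ d * sr 0 = sr 0 * d) ∨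
      ∀ d : DihedralGroup 4, d * sr i = sr i * d ↔ d * sr 1 = sr 1 * d := by decide
  refine (key i).imp (fun k => ?_) fun k => ?_ <;> ext x <;> simp only [h.mem_four, k]

theorem four_le (i : ZMod 4) : four φ i ≤ φ.range := fun _ hx => by
  obtain ⟨d, -, rfl⟩ := h.mem_four.1 hx
  exact ⟨d, rfl⟩

theorem card_four (i : ZMod 4) : Nat.card (four φ i) = 4 := by
  rw [four_eq h, card_map_of_injective h.inj]
  have : ∀ i : ZMod 4, Fintype.card {d : DihedralGroup 4 // d * sr i = sr i * d} = 4 := by decide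
  exact (Nat.card_congr (Equiv.subtypeEquivRight fun d => mem_centralizer_singleton_iff)).trans
    (Nat.card_eq_fintype_card.trans (this i))

theorem klein_four (i : ZMod 4) : IsKleinFour (four φ i) := by
  have key : ∀ (i : ZMod 4) (d : DihedralGroup 4), d * sr i = sr i * d → d ^ 2 = 1 := by decide
  have : Finite (four φ i) := Nat.finite_of_card_ne_zero (by rw [card_four h]; decide)
  have : Nontrivial (four φ i) := Finite.one_lt_card_iff_nontrivial.1 (by rw [card_four h]; decide)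
  have := Fact.mk Nat.prime_two
  refine ⟨card_four h i, (Monoid.exponent_eq_prime_iff Nat.prime_two).2 fun x h1 =>
    orderOf_eq_prime (Subtype.ext ?_) h1⟩
  obtain ⟨d, hd, e⟩ := h.mem_four.1 x.2
  rw [SubgroupClass.coe_pow, ← e, ← map_pow, key i d hd, map_one, OneMemClass.coe_one]

theorem four_ne : four φ 0 ≠ four φ 1 := fun e => by
  obtain ⟨d, hd, e'⟩ := h.mem_four.1 (e ▸ h.mem_four_zero.2 (Or.inr (Or.inr (Or.inl rfl))))
  rw [h.inj e'] at hd
  exact absurd hd (by decide)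

theorem eq_t {d : DihedralGroup 4} (h1 : φ d ≠ 1) (hd : ∀ c, Commute (φ c) (φ d)) : d = r 2 := by
  have key : ∀ d : DihedralGroup 4, d ≠ 1 → (∀ c, c * d = d * c) → d = r 2 := by decide
  exact key d (fun e => h1 (by rw [e, map_one])) fun c => h.inj (by
    rw [map_mul, map_mul]; exact hd c)

theorem normalizer_range : normalizer (φ.range : Set G) = φ.range := by
  refine le_antisymm (fun g hg => h.cent g ?_) le_normalizer
  obtain ⟨d, hd⟩ := (mem_normalizer_iff.1 hg _).1 ⟨r 2, rfl⟩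
  have : d = r 2 := eq_t h (by rw [hd]; simpa using ne_one_of h.invol_t) fun c => by
    obtain ⟨e, he⟩ := (mem_normalizer_iff.1 (inv_mem hg) _).1 ⟨c, rfl⟩
    have := (IsD8.commute_t (φ := φ) e).map (MulAut.conj g).toMonoidHom
    rw [hd]
    simpa [he, mul_assoc] using this
  rw [this] at hd
  exact eq_mul_inv_iff_mul_eq.1 hd |>.symm

/-- An elementary abelian subgroup of the dihedral group. -/
theorem le_cases {A : Subgroup G} (hA : A ≤ φ.range) (hc : ∀ a ∈ A, ∀ b ∈ A, a * b = b * a)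
    (h2 : ∀ a ∈ A, a ^ 2 = 1) :
    (∀ a ∈ A, a = 1 ∨ a = φ (r 2)) ∨ ∃ i, φ (sr i) ∈ A ∧ A ≤ four φ i := by
  by_cases hi : ∃ i, φ (sr i) ∈ A
  · obtain ⟨i, hi⟩ := hi
    refine Or.inr ⟨i, hi, fun a ha => ?_⟩
    obtain ⟨d, rfl⟩ := hA ha
    exact h.mem_four.2 ⟨d, h.inj (by rw [map_mul, map_mul]; exact hc _ ha _ hi), rfl⟩
  · refine Or.inl fun a ha => ?_
    obtain ⟨d | d, rfl⟩ := hA ha
    · have key : ∀ d : ZMod 4, (r d : DihedralGroup 4) ^ 2 = 1 → r d = 1 ∨ r d = r 2 := by decide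
      rcases key d (h.inj (by rw [map_pow, h2 _ ha, map_one])) with e | e <;> rw [e] <;> simp
    · exact absurd ⟨d, ha⟩ hi

theorem eq_four [Finite G] {U : Subgroup G} (hU : U ≤ φ.range) (hK : IsKleinFour U) :
    U = four φ 0 ∨ U = four φ 1 := by
  have h2 : ∀ a ∈ U, a ^ 2 = 1 := fun a ha => congrArg Subtype.val
    (hK.exponent_two ▸ Monoid.pow_exponent_eq_one (⟨a, ha⟩ : U))
  rcases le_cases h hU (fun a ha b hb => congrArg Subtype.val
    (mul_comm_of_exponent_two hK.exponent_two (⟨a, ha⟩ : U) ⟨b, hb⟩)) h2 with k | ⟨i, -, k⟩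
  · have : U ≤ zpowers (φ (r 2)) := fun a ha => by
      rcases k a ha with rfl | rfl
      exacts [one_mem _, mem_zpowers _]
    have := card_le_of_le this
    rw [hK.card_four, Nat.card_zpowers, h.invol_t] at this
    omega
  · rw [eq_of_le_of_card_ge k (by rw [hK.card_four, card_four h])]
    exact four_cases h i

variable [Finite G]

theorem exists_range_eq (T : Sylow 2 G) :
    ∃ g : G, ((MulAut.conj g).toMonoidHom.comp φ).range = T := by
  have := Fact.mk Nat.prime_two
  obtain ⟨P, hP⟩ := h.exists_sylow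
  obtain ⟨g, rfl⟩ := MulAction.exists_smul_eq G P T
  exact ⟨g, by rw [range_conj, ← hP]; rfl⟩

theorem not_conj_four (g : G) : (four φ 0).map (MulAut.conj g).toMonoidHom ≠ four φ 1 := fun e => by
  have := Fact.mk Nat.prime_two
  obtain ⟨P, hP⟩ := h.exists_sylow
  have h1 : ((g • P : Sylow 2 G) : Subgroup G) ≤ normalizer (four φ 1 : Set G) := by
    have := (h.map_conj g).range_le_normalizer 0
    rwa [four_conj, e, range_conj, ← hP] at this
  obtain ⟨n, hn, e'⟩ := exists_smul_of_le _ P h1 (hP ▸ h.range_le_normalizer 1)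
  rw [← mul_smul, Sylow.smul_eq_iff_mem_normalizer] at e'
  have h2 : n * g ∈ normalizer ((P : Subgroup G) : Set G) := e'
  rw [hP, normalizer_range h] at h2
  refine four_ne h (SetLike.ext fun x => ?_)
  rw [mem_normalizer_iff''.1 hn x, ← e, mem_map_conj_iff,
    mem_normalizer_iff''.1 (h.range_le_normalizer 0 h2) x]
  simp [mul_assoc]

theorem exists_conj_four {U : Subgroup G} (hK : IsKleinFour U) :
    ∃ g : G, U = (four φ 0).map (MulAut.conj g).toMonoidHom ∨
      U = (four φ 1).map (MulAut.conj g).toMonoidHom := by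
  have := Fact.mk Nat.prime_two
  obtain ⟨T, hT⟩ := (IsPGroup.of_card (p := 2) (n := 2) hK.card_four).exists_le_sylow
  obtain ⟨g, hg⟩ := exists_range_eq h T
  exact ⟨g, by simpa only [four_conj] using eq_four (h.map_conj g) (hg ▸ hT) hK⟩

theorem exists_eq_four {U : Subgroup G} (hK : IsKleinFour U) :
    ∃ ψ : DihedralGroup 4 →* G, IsD8 ψ ∧ U = four ψ 0 := by
  obtain ⟨g, e | e⟩ := exists_conj_four h hK
  · exact ⟨_, h.map_conj g, by rw [four_conj, e]⟩
  · exact ⟨_, (h.swap.map_conj g), by rw [four_conj, e, four_swap, zero_add]⟩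

/-- The normalizer of a non-trivial elementary abelian `2`-group normalizes a four-group. -/
theorem elem_cases (h0 : IsConj (φ (r 2)) (φ (sr 0))) (h1 : IsConj (φ (r 2)) (φ (sr 1)))
    {A : Subgroup G} (hA : A ≠ ⊥) (hc : ∀ a ∈ A, ∀ b ∈ A, a * b = b * a) (h2 : ∀ a ∈ A, a ^ 2 = 1) :
    ∃ ψ : DihedralGroup 4 →* G, IsD8 ψ ∧ normalizer (A : Set G) ≤ normalizer (four ψ 0 : Set G) := by
  have := Fact.mk Nat.prime_two
  obtain ⟨⟨a, ha⟩, a1⟩ := ne_bot_iff_exists_ne_one.1 hA
  have a1 : a ≠ 1 := fun e => a1 (Subtype.ext e)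
  obtain ⟨ψ, hψ, rfl⟩ := h.exists_of_isConj (h.isConj_of_invol h0 h1 (orderOf_eq_prime (h2 a ha) a1))
  rcases le_cases hψ (fun b hb => hψ.cent b (hc b hb _ ha)) hc h2 with k | ⟨i, hi, k⟩
  · refine ⟨ψ, hψ, fun g hg => hψ.range_le_normalizer 0 (hψ.cent g ?_)⟩
    rcases k _ ((mem_normalizer_iff.1 hg _).1 ha) with e | e
    · exact absurd (by simpa using e) a1
    · exact mul_inv_eq_iff_eq_mul.1 e
  · have key : ∀ (i : ZMod 4) (d : DihedralGroup 4), d * sr i = sr i * d →
        d = 1 ∨ d = r 2 ∨ d = sr i ∨ d = r 2 * sr i := by decide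
    have : A = four ψ i := le_antisymm k fun x hx => by
      obtain ⟨d, hd, rfl⟩ := hψ.mem_four.1 hx
      rcases key i d hd with rfl | rfl | rfl | rfl
      exacts [by simp, ha, hi, map_mul ψ _ _ ▸ mul_mem ha hi]
    obtain ⟨ψ', h', e⟩ := exists_eq_four hψ (klein_four hψ i)
    exact ⟨ψ', h', by rw [this, e]⟩

end D8

namespace G168

theorem pow_mat : ∀ a b c d e f g h i : ZMod 2, (!![a, b, c; d, e, f; g, h, i]).det = 1 →
    !![a, b, c; d, e, f; g, h, i] ^ 4 = 1 ∨ !![a, b, c; d, e, f; g, h, i] ^ 3 = 1 ∨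
      !![a, b, c; d, e, f; g, h, i] ^ 7 = 1 := by
  simp only [Matrix.det_fin_three]
  decide +kernel

local instance fact2 : Fact (Nat.Prime 2) := ⟨Nat.prime_two⟩
local instance fact3 : Fact (Nat.Prime 3) := ⟨Nat.prime_three⟩
local instance fact7 : Fact (Nat.Prime 7) := ⟨by norm_num⟩

variable [Finite G] [IsSimpleGroup G] (h : Nat.card G = 168)
include h

theorem not_cyclic : ¬ IsCyclic G := not_isCyclic_of_card (by rw [h]; norm_num)

theorem pow_cases (g : G) : g ^ 4 = 1 ∨ g ^ 3 = 1 ∨ g ^ 7 = 1 := by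
  obtain ⟨e⟩ := equiv_SL3_of_card h
  have := pow_mat _ _ _ _ _ _ _ _ _ (Matrix.eta_fin_three (e g).1 ▸ (e g).2)
  rw [← Matrix.eta_fin_three] at this
  have k : ∀ n, (e g).1 ^ n = 1 → g ^ n = 1 := fun n hn =>
    e.injective (Subtype.ext (by rw [map_pow, map_one]; exact hn))
  exact this.imp (k 4) (Or.imp (k 3) (k 7))

theorem orderOf_cases (g : G) :
    orderOf g = 1 ∨ orderOf g = 2 ∨ orderOf g = 3 ∨ orderOf g = 4 ∨ orderOf g = 7 := by
  have := pow_cases h g
  simp only [← orderOf_dvd_iff_pow_eq_one] at this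
  have h7 : orderOf g ≤ 7 := by
    rcases this with e | e | e <;> have := Nat.le_of_dvd (by decide) e <;> omega
  generalize orderOf g = n at *
  interval_cases n <;> omega

theorem eq_one_of_coprime {a b : G} (hc : Commute a b) (hab : (orderOf a).Coprime (orderOf b)) :
    orderOf a = 1 ∨ orderOf b = 1 := by
  have h1 := orderOf_cases h (a * b)
  rw [hc.orderOf_mul_eq_mul_orderOf_of_coprime hab] at h1
  rcases orderOf_cases h a with e | e | e | e | e <;>
    rcases orderOf_cases h b with f | f | f | f | f <;> rw [e, f] at h1 hab ⊢ <;>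
      revert h1 hab <;> decide

theorem exists_isD8 : ∃ φ : DihedralGroup 4 →* G, IsD8 φ := by
  obtain ⟨e⟩ := equiv_SL3_of_card h
  let w : Matrix.SpecialLinearGroup (Fin 3) (ZMod 2) :=
    ⟨!![1, 1, 0; 0, 1, 1; 0, 0, 1], by rw [Matrix.det_fin_three]; decide⟩
  have hw : orderOf w = 2 ^ (1 + 1) := orderOf_eq_prime_pow
    (fun e => absurd (congrArg Subtype.val e) (by decide +kernel))
    (Subtype.ext (by decide +kernel))
  obtain ⟨-, φ, hφ, -⟩ := exists_dih8 (not_cyclic h) (by rw [h]; decide) (by rw [h]; decide)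
    ((e.symm.orderOf_eq w).trans hw)
  have ht := (invol_dih hφ).1
  have hC : IsPGroup 2 (centralizer ({φ (r 2)} : Set G)) := fun g => by
    refine ⟨2, Subtype.ext (orderOf_dvd_iff_pow_eq_one.1 ?_)⟩
    have := mt (eq_one_of_coprime h (mem_centralizer_singleton.1 g.2))
    rw [ht] at this
    rcases orderOf_cases h g with f | f | f | f | f <;> rw [f] at this ⊢ <;> revert this <;> decide
  obtain ⟨T, hT⟩ := hC.exists_le_sylow
  have h1 : φ.range ≤ centralizer {φ (r 2)} := by
    rintro _ ⟨d, rfl⟩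
    exact mem_centralizer_singleton.2 (IsD8.commute_t d)
  have h2 := eq_of_le_of_card_ge (h1.trans hT) (by
    rw [card_range_dih hφ, card_sylow_eight (by rw [h]; decide) (by rw [h]; decide)])
  exact ⟨φ, hφ, fun g hg => h2.ge (hT (mem_centralizer_singleton.2 hg))⟩

theorem exists_isD8_sylow (T : Sylow 2 G) : ∃ φ : DihedralGroup 4 →* G, IsD8 φ ∧ φ.range = T := by
  obtain ⟨φ, hφ⟩ := exists_isD8 h
  obtain ⟨g, hg⟩ := D8.exists_range_eq hφ T
  exact ⟨_, hφ.map_conj g, hg⟩

theorem conj {φ : DihedralGroup 4 →* G} (hφ : IsD8 φ) (i : ZMod 4) :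
    IsConj (φ (r 2)) (φ (sr i)) :=
  hφ.conj_of_no_index_two (no_index_two_of_simple (by rw [h]; decide)) i

theorem defOne {p : ℕ} [hp : Fact p.Prime] (h2 : ¬ p ^ 2 ∣ 168) {x : G} (hx : orderOf x = p) :
    DefOne p x ⊥ := by
  obtain ⟨K, hK⟩ := exists_defOne hx (not_dvd_index_of_not_sq_dvd hx (h ▸ h2))
  have : K = ⊥ := eq_bot_iff.2 fun y hy => by
    obtain ⟨h1, h3⟩ := (hK.mem y).1 hy
    exact orderOf_eq_one_iff.1 ((eq_one_of_coprime h h1
      (hx ▸ (hp.out.coprime_iff_not_dvd.2 h3))).resolve_left fun e => hp.out.one_lt.ne' (hx ▸ e))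
  exact this ▸ hK

theorem card_E3 {x : G} (d : DefOne 3 x ⊥) : Nat.card E[d] = 2 ∧ Nat.card (Sylow 3 G) = 28 := by
  have h1 := d.card_eq_bot
  have h2 : Nat.card E[d] ∣ 2 := (card_subgroup_dvd_card E[d]).trans
    (by rw [Nat.card_eq_fintype_card, ZMod.card_units])
  have h3 : Nat.card E[d] ≠ 1 := fun e => d.mem_commutator_iff.1 (by
    by_contra hx
    obtain ⟨a, b, hab⟩ := exists_not_comm (not_cyclic h)
    exact hab (comm_of_isSimple (fun e => hx (e ▸ mem_top x)) a b)) (card_eq_one.1 e)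
  have h4 := ((Nat.dvd_prime Nat.prime_two).1 h2).resolve_left h3
  rw [h, h4] at h1
  exact ⟨h4, by omega⟩

theorem card_E7 {x : G} (d : DefOne 7 x ⊥) : Nat.card E[d] = 3 ∧ Nat.card (Sylow 7 G) = 8 := by
  have h1 := d.card_eq_bot
  have h2 := card_sylow_modEq_one 7 G
  have h3 := card_sylow_ne_one_of_simple (not_cyclic h) (p := 7) (by rw [h]; decide)
  rw [h] at h1
  have h4 : Nat.card (Sylow 7 G) ∣ 24 := ⟨Nat.card E[d], by nlinarith⟩
  have h5 := Nat.le_of_dvd (by decide) h4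
  unfold Nat.ModEq at h2
  generalize Nat.card (Sylow 7 G) = n at *
  interval_cases n <;> omega

theorem card_sylow : Nat.card (Sylow 2 G) = 21 ∧ Nat.card (Sylow 3 G) = 28 ∧
    Nat.card (Sylow 7 G) = 8 := by
  obtain ⟨x, hx⟩ := exists_prime_orderOf_dvd_card' (G := G) 3 (by rw [h]; decide)
  obtain ⟨y, hy⟩ := exists_prime_orderOf_dvd_card' (G := G) 7 (by rw [h]; decide)
  refine ⟨?_, (card_E3 h (defOne h (by decide) hx)).2, (card_E7 h (defOne h (by decide) hy)).2⟩
  obtain ⟨φ, hφ⟩ := exists_isD8 h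
  obtain ⟨P, hP⟩ := hφ.exists_sylow
  have := φ.range.index_mul_card
  rw [hφ.card_range, h, ← D8.normalizer_range hφ, ← hP] at this
  have h1 : _ = (normalizer ((P : Subgroup G) : Set G)).index := P.card_eq_index_normalizer
  omega

omit [IsSimpleGroup G] in
theorem card_normalizer {p n : ℕ} [Fact p.Prime] (hn : Nat.card (Sylow p G) = n) (P : Sylow p G) :
    n * Nat.card (normalizer ((P : Subgroup G) : Set G)) = 168 := by
  rw [← hn, ← h, P.card_eq_index_normalizer]
  exact index_mul_card _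

theorem solvable {M : Subgroup G} (hM : M ≠ ⊤) : Group.IsSolvable M := by
  have h1 := two_mul_card_dvd (not_cyclic h) hM
  have h2 := M.index_mul_card
  rw [h] at h1 h2
  have h3 : 7 ≤ M.index := (Nat.Prime.dvd_factorial (by norm_num)).1 (Dvd.dvd.trans (by decide) h1)
  have key : ∀ m ≤ 24, m ∣ 168 → ∃ p ∈ [2, 3], ∃ q ∈ [3, 7], ∃ a < 4, ∃ b < 2,
    m = p ^ a * q ^ b := by decide
  obtain ⟨p, hp, q, hq, a, -, b, -, e⟩ := key (Nat.card M) (by nlinarith) (Dvd.intro_left _ h2)
  refine S0144.result p q a b ?_ ?_ e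
  · simp only [List.mem_cons, List.not_mem_nil, or_false] at hp
    rcases hp with rfl | rfl <;> norm_num
  · simp only [List.mem_cons, List.not_mem_nil, or_false] at hq
    rcases hq with rfl | rfl <;> norm_num

theorem card_N {φ : DihedralGroup 4 →* G} (hφ : IsD8 φ) :
    Nat.card (normalizer (four φ 0 : Set G)) = 24 := hφ.card_normalizer (conj h hφ 0)

theorem N_ne_top {φ : DihedralGroup 4 →* G} (hφ : IsD8 φ) :
    normalizer (four φ 0 : Set G) ≠ ⊤ := fun e => by
  have := card_N h hφ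
  rw [e, card_top, h] at this
  omega

theorem exists_le_three (P : Sylow 3 G) : ∃ ψ : DihedralGroup 4 →* G, IsD8 ψ ∧
    normalizer ((P : Subgroup G) : Set G) ≤ normalizer (four ψ 0 : Set G) := by
  obtain ⟨φ, hφ⟩ := exists_isD8 h
  obtain ⟨ψ, hψ, hle⟩ : ∃ ψ : DihedralGroup 4 →* G, IsD8 ψ ∧
      (P : Subgroup G) ≤ normalizer (four ψ 0 : Set G) := by
    obtain ⟨x, hx⟩ := exists_prime_orderOf_dvd_card' (G := normalizer (four φ 0 : Set G)) 3
      (by rw [card_N h hφ]; decide)
    have d := defOne h (by decide) ((orderOf_coe x).trans hx)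
    obtain ⟨g, rfl⟩ := MulAction.exists_smul_eq G d.sylow P
    refine ⟨_, hφ.map_conj g, ?_⟩
    rw [D8.four_conj, ← map_equiv_normalizer_eq]
    exact map_mono (zpowers_le.2 x.2)
  refine ⟨ψ, hψ, ?_⟩
  set N := normalizer (four ψ 0 : Set G)
  have h1 := card_normalizer h (card_sylow h).2.1 P
  have h2 : Nat.card (Sylow 3 N) * Nat.card ((normalizer ((P : Subgroup G) : Set G)).subgroupOf N) =
      24 := by
    rw [← card_N h hψ, (P.subtype hle).card_eq_index_normalizer, subgroupOf_normalizer_eq hle]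
    exact index_mul_card _
  have h3 := card_sylow_modEq_one 3 N
  rw [← card_subtype, subgroupOf_map_subtype] at h2
  have h4 := Nat.le_of_dvd (by decide) (Dvd.intro _ h2)
  have h5 := card_dvd_of_le (inf_le_left : normalizer ((P : Subgroup G) : Set G) ⊓ N ≤ _)
  refine inf_eq_left.1 (eq_of_le_of_card_ge inf_le_left ?_)
  unfold Nat.ModEq at h3
  generalize Nat.card (Sylow 3 N) = n at *
  interval_cases n <;> omega

theorem coatom_cases {M : Subgroup G} (hM : IsCoatom M) :
    (∃ ψ : DihedralGroup 4 →* G, IsD8 ψ ∧ M = normalizer (four ψ 0 : Set G)) ∨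
      ∃ P : Sylow 7 G, M = normalizer ((P : Subgroup G) : Set G) := by
  obtain ⟨φ, hφ⟩ := exists_isD8 h
  have k : ∀ ψ : DihedralGroup 4 →* G, IsD8 ψ → M ≤ normalizer (four ψ 0 : Set G) →
      M = normalizer (four ψ 0 : Set G) := fun ψ hψ hle =>
    ((hM.le_iff.1 hle).resolve_left (N_ne_top h hψ)).symm
  by_cases h0 : M = ⊥
  · exact Or.inl ⟨φ, hφ, k φ hφ (h0 ▸ bot_le)⟩
  have := solvable h hM.1
  obtain ⟨p, A, hp, h1, h2, h3, h4, h5, h6⟩ := Solv.exists_invariant_elementary_le M M le_normalizer h0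
  have := Fact.mk hp
  have hd : p ∣ 2 ^ 3 * 3 * 7 := (Solv.dvd_card_of_isPGroup h6 h2).trans
    ((card_subgroup_dvd_card A).trans h.dvd)
  obtain ⟨P, hP⟩ := h6.exists_le_sylow
  have k' : Nat.card P = p ^ 1 → A = P := fun e => eq_of_le_of_card_ge hP (by
    rw [e, pow_one]
    exact Nat.le_of_dvd Nat.card_pos (Solv.dvd_card_of_isPGroup h6 h2))
  rcases hp.dvd_mul.1 hd with e | e
  · rcases hp.dvd_mul.1 e with e | e
    · obtain rfl := (Nat.prime_dvd_prime_iff_eq hp Nat.prime_two).1 (hp.dvd_of_dvd_pow e)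
      obtain ⟨ψ, hψ, hle⟩ := D8.elem_cases hφ (conj h hφ 0) (conj h hφ 1) h2
        (fun a ha b hb => congrArg Subtype.val (h4.is_comm.comm (⟨a, ha⟩ : A) ⟨b, hb⟩)) h5
      exact Or.inl ⟨ψ, hψ, k ψ hψ (h1.trans hle)⟩
    · obtain rfl := (Nat.prime_dvd_prime_iff_eq hp Nat.prime_three).1 e
      obtain ⟨ψ, hψ, hle⟩ := exists_le_three h P
      rw [k' (Classical.card_sylow_of_card P (m := 56) h (by decide))] at h1
      exact Or.inl ⟨ψ, hψ, k ψ hψ (h1.trans hle)⟩
  · obtain rfl := (Nat.prime_dvd_prime_iff_eq hp (by norm_num)).1 e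
    rw [k' (Classical.card_sylow_of_card P (m := 24) h (by decide))] at h1
    refine Or.inr ⟨P, ((hM.le_iff.1 h1).resolve_left fun e => ?_).symm⟩
    have := card_normalizer h (card_sylow h).2.2 P
    rw [e, card_top, h] at this
    omega

theorem equiv_N {φ : DihedralGroup 4 →* G} (hφ : IsD8 φ) :
    Nonempty (normalizer (four φ 0 : Set G) ≃* Equiv.Perm (Fin 4)) :=
  Classical.nonempty_equiv_perm4 (card_N h hφ) fun g hg => by
    have := orderOf_cases h g
    rw [orderOf_coe, hg] at this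
    omega

omit [Finite G] [IsSimpleGroup G] in
theorem card_orderOf {a : G} {n c : ℕ} (ha : orderOf a = n) (hc : ∀ b, orderOf b = n → IsConj a b)
    (hC : Nat.card (centralizer ({a} : Set G)) = c) : Nat.card {g : G // orderOf g = n} * c = 168 := by
  rw [← h, ← card_class_mul_card_centralizer a, hC]
  congr 1
  exact Nat.card_congr (Equiv.subtypeEquivRight fun g =>
    ⟨hc g, fun e => (orderOf_eq_of_isConj e).symm.trans ha⟩)

theorem conj_two {s t : G} (hs : orderOf s = 2) (ht : orderOf t = 2) : IsConj s t := by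
  obtain ⟨φ, hφ⟩ := exists_isD8 h
  exact (hφ.isConj_of_invol (conj h hφ 0) (conj h hφ 1) hs).symm.trans
    (hφ.isConj_of_invol (conj h hφ 0) (conj h hφ 1) ht)

theorem card_two : Nat.card {g : G // orderOf g = 2} = 21 := by
  obtain ⟨φ, hφ⟩ := exists_isD8 h
  have := card_orderOf h hφ.invol_t (fun b => conj_two h hφ.invol_t) hφ.card_cent_t
  omega

end G168

end Cfsg.Agent.Small
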