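import Cfsg.Agent.Small.F22A

/-! Centralisers of a product of two commuting transpositions in `Fi22` and in `Aut(Fi22)` (helper9): `P22`, `P73`,
`F22C.p22`, `F22C.p73`. -/

set_option autoImplicit false
set_option maxRecDepth 100000

namespace Cfsg.Agent.Small

open Known Comp Subgroup Equiv Function Fischer Spor.Ct

section
variable {G H : Type*} [Group G] [Group H] {U : Type} [Group U]

/-- `C(a b)` has shape `(2 × 2^(1+8)).O-(6,2)`. -/
def P22 (U : Type) [Group U] (a b : G) : Prop := ∃ (E : Subgroup G) (π : centralizer {a * b} →* U), Shp π ∧ IsExtraspecial 2 E ∧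
  Nat.card E = 2 ^ 9 ∧ a * b ∈ E ∧ a ∉ E ∧ (∀ k ∈ E, Commute a k ∧ Commute (a * b) k) ∧ ∀ x, π x = 1 ↔ x.1 ∈ zpowers a ⊔ E

/-- `C(j)` has shape `2^(1+10).O-(6,2)` and `j` is not weakly closed. -/
def P73 (U : Type) [Group U] (j : G) : Prop := ∃ π : centralizer {j} →* U, Shp π ∧ IsExtraspecial 2 π.ker ∧ Nat.card π.ker = 2 ^ 11 ∧
  ∃ (g : G) (x : centralizer {j}), π x = 1 ∧ x.1 = g * j * g⁻¹ ∧ x.1 ≠ j

theorem P22.map [Finite G] {a b : G} (h : P22 U a b) (e : G ≃* H) : P22 U (e a) (e b) := by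
  obtain ⟨E, π, h1, h2, h3, h4, h5, h6, h7⟩ := h
  have f : E ≃* E.map e.toMonoidHom := e.subgroupMap E
  unfold P22
  rw [← map_mul]
  refine ⟨E.map e.toMonoidHom, _, h1.congr (cenE e _), PGrp.ES_of_mulEquiv h2 f,
    (Nat.card_congr f.toEquiv).symm.trans h3, ⟨_, h4, rfl⟩, fun ⟨k, hk, c⟩ => h5 (e.injective c ▸ hk), ?_,
    fun x => (h7 _).trans ?_⟩
  · rintro _ ⟨k, hk, rfl⟩
    exact ⟨(h6 k hk).1.map e, (h6 k hk).2.map e⟩
  · have : zpowers (e a) ⊔ E.map e.toMonoidHom = (zpowers a ⊔ E).map e.toMonoidHom := by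
      rw [Subgroup.map_sup, MonoidHom.map_zpowers]; rfl
    rw [this, mem_map_equiv]
    rfl

theorem P73.map [Finite G] {j : G} (h : P73 U j) (e : G ≃* H) : P73 U (e j) := by
  obtain ⟨π, h1, h2, h3, g, x, h4, h5, h6⟩ := h
  have f : π.ker ≃* (π.comp (cenE e j).toMonoidHom).ker := ((cenE e j).symm.subgroupMap _).trans
    (MulEquiv.subgroupCongr (map_equiv_eq_comap_symm' _ _))
  exact ⟨_, h1.congr (cenE e _), PGrp.ES_of_mulEquiv h2 f, (Nat.card_congr f.toEquiv).symm.trans h3, e g,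
    (cenE e j).symm x, by simpa using h4, (congrArg e h5).trans (by simp), e.injective.ne h6⟩

theorem card_cent_aut [Finite G] (z : center G = ⊥) (hi : (MulAut.conj : G →* _).range.index = 2) (t : G) :
    Nat.card (centralizer {MulAut.conj t}) ≤ 2 * Nat.card (centralizer {t}) := by
  rw [← ((MulAut.conj : G →* _).range.subgroupOf _).index_mul_card, ← card_map_of_injective (conj_inj z),
    ← card_map_of_injective (subtype_injective _)]
  refine Nat.mul_le_mul (Nat.le_of_dvd two_pos (hi ▸ relIndex_dvd_index_of_normal _ _)) (card_le_of_le ?_)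
  rintro _ ⟨c, ⟨g, e⟩, rfl⟩
  exact ⟨g, mem_centralizer_singleton_iff.2 (conj_inj z (by
    rw [map_mul, map_mul, e]; exact mem_centralizer_singleton_iff.1 c.2)), e⟩

variable [Finite G] {D : Set G} {a b : G}

theorem idx2 (h : B22 D) (k : CL D [a, b]) : centralizer {a, b} ≤ centralizer {a * b} ∧
    ((centralizer {a, b}).subgroupOf (centralizer {a * b})).index = 2 ∧ Nat.card (centralizer {a * b}) = 53084160 := by
  have s : ({a, b} : Set G) = {y | y ∈ [a, b]} := by ext; simp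
  have p : [a, b].prod = a * b := by simp
  have le : centralizer {a, b} ≤ centralizer {a * b} := fun c hc => mem_centralizer_singleton_iff.2
    (p ▸ (CL.comm_prod (mem_cent_list.1 (s ▸ hc))).eq)
  have i := index_of_perm (perm_quot' (l := [a, b]) h.fl.wt h.k.noCL (by simp) (h.k.trA 2 (by simp)) k h.fl.top (L := ⊤)
    (fun _ => ⟨1, trivial, fun _ _ => Commute.one_left _⟩) (C := centralizer {a * b}) (by simp)
    fun c _ => s ▸ mem_cent_list)
  refine ⟨le, i, ?_⟩
  have k1 := (cl_cons'.1 k).1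
  have e1 := card_cl h.fl.tg k1 (h.k.trA _ (by simp))
  rw [card_cl h.fl.tg k (h.k.trA _ (by simp)), h.k.ncL0 _ (cl_nil _) rfl, h.k.ncL1 _ k1 rfl, ← s] at e1
  have : Nat.card (centralizer {y : G | y ∈ ([] : List G)}) = 64561751654400 := by
    rw [← h.card]; simp
  rw [← ((centralizer {a, b}).subgroupOf _).index_mul_card, i, Nat.card_congr (subgroupOfEquivOfLe le).toEquiv]
  simp only [List.length_cons, List.length_nil, Nat.factorial]
  omega

end

theorem odd_of {A U : Type} [Group A] [Group U] {a : ℕ → A} {E : List (List ℕ × List ℕ)} (h : Eqs a E) {C : Subgroup A}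
    {qs xs : List ℕ} (hle : Spor.genL a (qs ++ xs) ≤ C) {π : C →* U} (hk : π.ker = (Spor.genL a qs).subgroupOf C)
    (u : List ℕ) (q : ℕ) (hc : (E.contains (u ++ (u ++ u), []) && sub (qs ++ xs) u && qs.contains q) = true)
    (hn : W a (u.reverse ++ [q]) ≠ W a (q :: u.reverse)) : ∃ u q : C, u ^ 3 = 1 ∧ π q = 1 ∧ ¬ Commute u q := by
  simp only [Bool.and_eq_true] at hc
  have m := List.contains_iff_mem.1 hc.2
  refine ⟨⟨_, hle (ev_mem_sub hc.1.2)⟩, ⟨_, hle (Spor.mem_genL _ (List.mem_append_left _ m))⟩, Subtype.ext ?_,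
    hk.ge (Spor.mem_genL _ m), fun c => hn ?_⟩
  · simpa [Spor.ev_append, pow_three'] using h.eq _ _ hc.1.1
  · simpa [W_append, ev_eq_W] using congrArg Subtype.val c.eq

namespace F22C

local notation "G₀" => Cfsg.Spor.Fi22
local notation "y" => Fi22T.y

theorem cl : CL F22.D22 [y 0, y 2] := by
  obtain ⟨ψ, h⟩ := F22.b.iso
  exact cl_two (F22A.y_eq (j := 0) (by decide) ▸ F22.g_mem (by decide)) (F22A.y_eq (j := 2) (by decide) ▸ F22.g_mem (by decide))
    (by simpa using ne_of_chk Fi22T.mdl (u := [0]) (v := [2]) 0 (by decide +kernel))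
    (by simpa [Commute, SemiconjBy] using Fi22T.mdl.eq (u := [0, 2]) (v := [2, 0]) (by decide +kernel))

def us : List (List ℕ) := [[0],[1],[2],[3],[4],[5],[6],[7],[8],[9],[10],[0,2],[4,6],[5,10,4,5],[10,4],[5,6,4,5],[5,9,4,5,10,6,5,4,9,5,
  10,6],[9,8,5,4,9,5,10,5,9,4,5,9,8,9],[5,4,9,5,10,5,9,4,5,9,10,4],[7,8,3,2,4,3,9,3,4,2,3,8,7,8],[1,9,1,9,2,0,8,
  9,10,1,0,1,10,9,1,8,9,8,10,4,2],[1,2,0,1,3,4,10,5,6,3,4,3,5,10,4,3,9,3,4,2,3,9,7,8,7,9,8,7,6],[5,3,2,8,7,4,3,
  7,4,2,3,6,5,7,8],[8,9,5,10,7,8,9,5,3,4,10,5,6,3,4,3,2,5,10,3,9,8,3,4,9,10,3,10,9,4,3,9,8,9,4],[10,7,8,3,2,7,9,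
  3,9,5,9,3,9,7,2,3,8,7,8,10],[1,0,2,9,1,9,4,5,8,9,1,9,2,0,1,4]]

noncomputable def a (j : ℕ) : G₀ := W y (nthL [] us j)

noncomputable def ac (j : ℕ) : ℕ → ℕ := actW Fi22T.act (nthL [] us j)

theorem M : Mdl Spor.Fi22M.φ 3510 9 64561751654400 a ac [0,1248,2400,3456,3484,3494,3490,3489,3488] := mdl_wd Fi22T.mdl us (by decide)

def E : List (List ℕ × List ℕ) := [([0,20], [20,11,0]), ([11,20], [20,11]), ([12,20], [20,12]), ([13,20], [20,18,17,15,13,11,0]), ([14,20], [20,
  14,12,11]), ([15,20], [20,19,16,15,11,0]), ([16,20], [20,16,12,11]), ([17,20], [20,19,17,14,11,0]), ([18,20],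
   [20,18,16,14]), ([19,20], [20,19,12]), ([0,21], [21,11,0]), ([11,21], [21,11]), ([12,21], [21,14,12,11]),
   ([13,21], [21,18,17,13]), ([14,21], [21,14]), ([15,21], [21,19,16,15,13,11]), ([16,21], [21,18,16,12,11,0]),
   ([17,21], [21,17,14]), ([18,21], [21,18,14]), ([19,21], [21,19,17,12,0]), ([0,22], [22,0]), ([11,22], [22,
  11]), ([12,22], [22,18,17,12,0]), ([13,22], [22,13]), ([14,22], [22,19,16,14,11]), ([15,22], [22,15]), ([16,
  22], [22,16,13,0]), ([17,22], [22,17,15,11,0]), ([18,22], [22,18,15,11,0]), ([19,22], [22,19,13,0]), ([0,23],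
   [23,0]), ([11,23], [23,11]), ([12,23], [23,18,11]), ([13,23], [23,19,16,11,0]), ([14,23], [23,16,11,0]),
   ([15,23], [23,18,17,11]), ([16,23], [23,14,11,0]), ([17,23], [23,15,12]), ([18,23], [23,12,11]), ([19,23],
   [23,14,13]), ([0,24], [24,0]), ([11,24], [24,11]), ([12,24], [24,19,15,11]), ([13,24], [24,19,17,14,11,0]),
   ([14,24], [24,19,17,13,11,0]), ([15,24], [24,19,12,11]), ([16,24], [24,16,15,12,11]), ([17,24], [24,17]),
   ([18,24], [24,18,15,14,13,12,0]), ([19,24], [24,19]), ([0,25], [25,0]), ([11,25], [25,11]), ([12,25], [25,18,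
  15,0]), ([13,25], [25,19]), ([14,25], [25,16,13,11]), ([15,25], [25,17]), ([16,25], [25,19,14,11]), ([17,25],
   [25,15]), ([18,25], [25,17,12,0]), ([19,25], [25,13]), ([20,20], []), ([21,21], []), ([20,21,20,21,20,21],
   [11]), ([22,22], []), ([20,21,22,21,22,20,22], [18,19,17,16,13,0]), ([23,23], []), ([22,23,22,23], []), ([20,
  21,23,21,23,20,23], [18,19,16,13,12]), ([24,24], []), ([20,21,22,24,21,24,21], [18,16,17,14]), ([20,24,20,24,
  21,22,21,24], [17,14,12,11]), ([20,24,23,24,20,24,23,24], [16,14]), ([25,25], []), ([21,22,21,25,24,25], [15,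
  11,0]), ([20,24,25,20,24,25], [19,18,17,16,15,14,12,0]), ([20,22,24,22,25,21,25], [18,16,13]), ([22,23,25,22,
  23,25,23,22,25], [11]), ([11,11], []), ([12,11], [11,12]), ([12,12], []), ([13,11], [11,13]), ([13,13], []),
   ([13,12], [12,13,11]), ([14,11], [11,14]), ([14,14], []), ([14,12], [12,14]), ([14,13], [13,14]), ([15,11],
   [11,15]), ([15,15], []), ([15,12], [12,15]), ([15,13], [13,15]), ([15,14], [14,15,11]), ([16,11], [11,16]),
   ([16,16], []), ([16,12], [12,16]), ([16,13], [13,16]), ([16,14], [14,16]), ([16,15], [15,16]), ([17,11], [11,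
  17]), ([17,17], []), ([17,12], [12,17]), ([17,13], [13,17]), ([17,14], [14,17]), ([17,15], [15,17]), ([17,16],
   [16,17,11]), ([18,11], [11,18]), ([18,18], []), ([18,12], [12,18]), ([18,13], [13,18]), ([18,14], [14,18]),
   ([18,15], [15,18]), ([18,16], [16,18]), ([18,17], [17,18]), ([19,11], [11,19]), ([19,19], []), ([19,12], [12,
  19]), ([19,13], [13,19]), ([19,14], [14,19]), ([19,15], [15,19]), ([19,16], [16,19]), ([19,17], [17,19]),
   ([19,18], [18,19,11]), ([21,20,21,20,21,20,21,20,21,20,21,20], [])]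

theorem hE : Eqs a E := eqs_of_mdl M (by decide +kernel)

theorem ch : 2 ^ 10 * 51840 ≤ Nat.card (Spor.genL a ([0,11,12,13,14,15,16,17,18,19] ++ [20,21,22,23,24,25])) :=
  le_card_genL M [[20],[23],[24,25],[21,20],[22,23,25],[20,25,23,22,20],[21,25,23,22,21],[12],[14],[17],[11],[0],[19],[22,25,
  22],[23,24,25,23,22,25,24,23],[23,25,20,23,22,20,25,23],[24,23,25,24,23,24,25,23,24]]
    [3488,3490,3494,3484,0] (by decide +kernel)

theorem p22 : P22 O6mP.G (y 0) (y 2) := by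
  have e0 : a 0 = y 0 := mul_one _
  have e1 : W a [11] = y 0 * y 2 := by simp [a, us, nthL_eq]
  have hle := e1 ▸ comm_of_chk M (z := [11]) (xs := [0,11,12,13,14,15,16,17,18,19] ++ [20,21,22,23,24,25]) (by decide +kernel)
  have m : a 11 ∈ Spor.genL a [11,12,13,14,15,16,17,18,19] := Spor.mem_genL _ (by decide)
  obtain ⟨h1, h2⟩ := (hE.sub le_rfl).es (subG_top rfl) (m := 3) (z := 11) (es := [12,13,14,15,16,17,18,19]) rfl (by decide +kernel)
    (subG_ne m (by simpa using ne_of_chk M (u := [11]) (v := []) 0 (by decide +kernel)))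
  have c : ∀ k ∈ Spor.genL a [11,12,13,14,15,16,17,18,19], Commute (y 0) k := fun k hk => e0 ▸ (mem_centralizer_singleton_iff.1 (by
    simpa using comm_of_chk M (z := [0]) (by decide +kernel) hk)).symm
  have q : Spor.genL a [0,11,12,13,14,15,16,17,18,19] = zpowers (y 0) ⊔ Spor.genL a [11,12,13,14,15,16,17,18,19] :=
    le_antisymm (Spor.genL_le fun l hl => (List.mem_cons.1 hl).elim (fun k => by rw [k, e0]; exact mem_sup_left (mem_zpowers _))
      fun k => mem_sup_right (Spor.mem_genL _ k)) (sup_le (zpowers_le.2 (e0 ▸ Spor.mem_genL _ (by decide)))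
        (Spor.genL_mono _ (by decide)))
  have := O6mT.mdl.finite
  obtain ⟨h3, π, h4, h5⟩ := quot_pack hE O6mP.lifts hle (e := 2 ^ 10) (by rw [(idx2 F22.b cl).2.2, O6mP.card]; decide)
    (O6mP.card ▸ ch) (q ▸ (card_sup_two (F22.wt.sq _ (cl.2.1 _ (by simp))) c).trans_eq (by rw [h2]; rfl)) (by decide +kernel)
  have l := (Spor.genL_mono a (by decide)).trans hle (a := Spor.genL a [0,11,12,13,14,15,16,17,18,19])
  refine ⟨_, π, ⟨h4, .of_card (by rw [h5, Nat.card_congr (subgroupOfEquivOfLe l).toEquiv, h3]),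
    odd_of hE hle h5 [21,20,21,20] 12 (by decide +kernel) (ne_of_chk M 0 (by decide +kernel))⟩, h1, h2,
    by simpa [← e1] using m, fun k => ?_, fun k hk => ⟨c k hk, (mem_centralizer_singleton_iff.1 (l (q.ge (mem_sup_right hk)))).symm⟩,
    fun x => by rw [← q, ← MonoidHom.mem_ker, h5, mem_subgroupOf]⟩
  rw [q, sup_eq_right.2 (zpowers_le.2 k), h2] at h3
  exact absurd h3 (by decide)

def us' : List (List ℕ) := [[0],[1],[2],[3],[4],[5],[6],[7],[8],[9],[10],[11],[0,2],[2],[1,2,0,1,11],[4,6],[5,10,4,5],[10,4],[5,6,4,5],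
  [7,11,7,11],[9,8,5,4,9,5,10,5,9,4,5,9,8,9],[8,7,11,7,8,7,11,7],[5,4,9,5,10,5,9,4,5,9,10,4,2],[9,11,8,9,11,9,
  11,8,9],[3,10,5,2,4,6,3,5,4,5,10,3,11,7,8,9,7,8,9,6],[5,4,11,8,9,5,11,7,8],[8,11,7,9,8,10,5,9,4,5,8,9,7,8,9,
  10,11],[10,7,6,8,9,11,9,5,8,11,7,9,8,11,9,11,8,9,4],[6,11,9,5,8,9,11,6]]

noncomputable def a' (j : ℕ) : MulAut G₀ := W F22A.x (nthL [] us' j)

noncomputable def ac' (j : ℕ) : ℕ → ℕ := actW F22A.act (nthL [] us' j)

theorem M' : Mdl F22A.ρ 3510 12 129123503308800 a' ac' [3488,3265,3489,2409,3490,3285,3494,3491,3457] := mdl_wd F22A.mdl us' (by decide)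

def E' : List (List ℕ × List ℕ) := [([12,23], [23,12]), ([13,23], [23,13]), ([14,23], [23,21,19,14]), ([15,23], [23,15]), ([16,23], [23,22,20,18,
  16]), ([17,23], [23,17,15,12]), ([18,23], [23,21,19,18]), ([19,23], [23,19,15,12]), ([20,23], [23,21,20,17,13,
  12]), ([21,23], [23,21,15,12]), ([22,23], [23,22,19,17,13]), ([12,24], [24,12]), ([13,24], [24,13]), ([14,24],
   [24,22,17,15,14,12]), ([15,24], [24,17,15,12]), ([16,24], [24,22,20,16,13]), ([17,24], [24,17]), ([18,24],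
   [24,21,19,18,16,13,12]), ([19,24], [24,22,19,15,12]), ([20,24], [24,20,17,12]), ([21,24], [24,21,20,15,13]),
   ([22,24], [24,22,17,12]), ([12,25], [25,12]), ([13,25], [25,13]), ([14,25], [25,21,22,20,19,18,14]), ([15,
  25], [25,22,20,15,12]), ([16,25], [25,16]), ([17,25], [25,21,19,17,13,12]), ([18,25], [25,18]), ([19,25], [25,
  19,16,13,12]), ([20,25], [25,20,18,13]), ([21,25], [25,21,16,13,12]), ([22,25], [25,22,18,13]), ([12,26], [26,
  12]), ([13,26], [26,13]), ([14,26], [26,21,17,16,14]), ([15,26], [26,22,13]), ([16,26], [26,21,19,12]), ([17,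
  26], [26,19]), ([18,26], [26,22,20,13,12]), ([19,26], [26,17]), ([20,26], [26,18,15,12]), ([21,26], [26,17,16,
  12]), ([22,26], [26,15,13]), ([12,27], [27,12]), ([13,27], [27,13]), ([14,27], [27,21,18,15,14,12]), ([15,27],
   [27,21,18,12]), ([16,27], [27,21,20,17,13,12]), ([17,27], [27,21,20,16,13,12]), ([18,27], [27,21,15,12]),
   ([19,27], [27,19,18,15,12]), ([20,27], [27,20]), ([21,27], [27,21]), ([22,27], [27,22,18,17,16,15,13]), ([12,
  28], [28,12]), ([13,28], [28,13]), ([14,28], [28,20,18,14]), ([15,28], [28,22,18,12]), ([16,28], [28,21,12]),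
   ([17,28], [28,19,16,13]), ([18,28], [28,20]), ([19,28], [28,21,17,13,12]), ([20,28], [28,18]), ([21,28], [28,
  16,12]), ([22,28], [28,20,15,12]), ([23,23], []), ([24,24], []), ([23,24,23,24,23,24], [13,12]), ([25,25],
   []), ([23,24,25,24,25,23,25], [12]), ([26,26], []), ([25,26,25,26], [22,20,18,13,12]), ([23,24,26,24,26,23,
  26], [21,22,19,16,15]), ([27,27], []), ([23,24,25,27,24,27,24], [19,17,18,16,15]), ([23,27,23,27,24,25,24,27],
   [21,19,18,15]), ([23,27,26,27,23,27,26,27], [22,20,19,18,17,13]), ([28,28], []), ([24,25,24,28,27,28], [22,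
  20,18,16]), ([23,27,28,23,27,28], [22,20,19,16]), ([23,25,27,25,28,24,28], [21,20,18,15,16,13]), ([25,26,28,
  25,26,28,26,25,28], [19,18,17,16,13]), ([12,12], []), ([13,12], [12,13]), ([13,13], []), ([14,12], [12,14]),
   ([14,14], []), ([14,13], [13,14,12]), ([15,12], [12,15]), ([15,15], []), ([15,13], [13,15]), ([15,14], [14,
  15]), ([16,12], [12,16]), ([16,16], []), ([16,13], [13,16]), ([16,14], [14,16]), ([16,15], [15,16,12]), ([17,
  12], [12,17]), ([17,17], []), ([17,13], [13,17]), ([17,14], [14,17]), ([17,15], [15,17]), ([17,16], [16,17]),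
   ([18,12], [12,18]), ([18,18], []), ([18,13], [13,18]), ([18,14], [14,18]), ([18,15], [15,18]), ([18,16], [16,
  18]), ([18,17], [17,18,12]), ([19,12], [12,19]), ([19,19], []), ([19,13], [13,19]), ([19,14], [14,19]), ([19,
  15], [15,19]), ([19,16], [16,19]), ([19,17], [17,19]), ([19,18], [18,19]), ([20,12], [12,20]), ([20,20], []),
   ([20,13], [13,20]), ([20,14], [14,20]), ([20,15], [15,20]), ([20,16], [16,20]), ([20,17], [17,20]), ([20,18],
   [18,20]), ([20,19], [19,20,12]), ([21,12], [12,21]), ([21,21], []), ([21,13], [13,21]), ([21,14], [14,21]),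
   ([21,15], [15,21]), ([21,16], [16,21]), ([21,17], [17,21]), ([21,18], [18,21]), ([21,19], [19,21]), ([21,20],
   [20,21]), ([22,12], [12,22]), ([22,22], []), ([22,13], [13,22]), ([22,14], [14,22]), ([22,15], [15,22]),
   ([22,16], [16,22]), ([22,17], [17,22]), ([22,18], [18,22]), ([22,19], [19,22]), ([22,20], [20,22]), ([22,21],
   [21,22,12]), ([24,23,24,23,24,23,24,23,24,23,24,23], [])]

theorem hE' : Eqs a' E' := eqs_of_mdl M' (by decide +kernel)

theorem ch' : 2 ^ 11 * 51840 ≤ Nat.card (Spor.genL a' ([12,13,14,15,16,17,18,19,20,21,22] ++ [23,24,25,26,27,28])) :=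
  le_card_genL M' [[14],[27],[28,26],[23,24],[24,28,21,26,25,24],[28,21,26,25,23],[13],[20],[21],[17,15,13],[25,28,25,17],[28,
  27,26,27,28,27,26,27,28],[26,27,28,26,24,25,28,27,26],[21,19,28,26,21,25,23,25,21,26,28]]
    [3488,3490,3494,3484,0,16] (by decide +kernel)

theorem p73 : P73 O6mP.G (MulAut.conj (y 0 * y 2)) := by
  have e1 : W a' [12] = MulAut.conj (y 0 * y 2) := by simp [a', us', nthL_eq, F22A.x]
  have hle := e1 ▸ comm_of_chk M' (z := [12]) (xs := [12,13,14,15,16,17,18,19,20,21,22] ++ [23,24,25,26,27,28]) (by decide +kernel)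
  obtain ⟨h1, h2⟩ := (hE'.sub le_rfl).es (subG_top rfl) (m := 4) (z := 12) (es := [13,14,15,16,17,18,19,20,21,22]) rfl
    (by decide +kernel) (subG_ne (Spor.mem_genL _ (by decide))
      (by simpa using ne_of_chk M' (u := [12]) (v := []) 0 (by decide +kernel)))
  have := O6mT.mdl.finite
  obtain ⟨h3, π, h4, h5⟩ := quot_pack hE' O6mP.lifts hle (e := 2 ^ 11) ((card_cent_aut F22.fl.z F22A.idx _).trans (by
    rw [(idx2 F22.b cl).2.2, O6mP.card]; decide)) (O6mP.card ▸ ch') h2.le (by decide +kernel)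
  have l := (Spor.genL_mono a' (by decide)).trans hle (a := Spor.genL a' [12,13,14,15,16,17,18,19,20,21,22])
  have f := (subgroupOfEquivOfLe l).symm
  rw [← h5] at f
  have m : W a' [12,15] ∈ Spor.genL a' [12,13,14,15,16,17,18,19,20,21,22] := W_mem _ fun _ h => Spor.mem_genL _ (by revert h; simp; omega)
  have c := (Nat.card_congr f.toEquiv).symm.trans h3
  refine ⟨π, ⟨h4, .of_card c, odd_of hE' hle h5 [24,23,24,23] 14 (by decide +kernel) (ne_of_chk M' 0 (by decide +kernel))⟩,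
    PGrp.ES_of_mulEquiv h1 f, c, W a' [1,0,10,1], ⟨_, l m⟩, h5.ge m, ?_, (ne_of_chk M' 0 (by decide +kernel)).trans_eq e1⟩
  show W a' _ = _
  rw [← e1, eq_mul_inv_iff_mul_eq, ← W_append, ← W_append]
  exact M'.eq (by decide +kernel)

end F22C

end Cfsg.Agent.Small
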