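import Cfsg.Agent.Geom.OBridge

/-! Vanishing of `H¹(Ω, V)` for orthogonal groups over `F₂` (helper9): `Coc`, `K`, `principal_of`,
`three` (a fixed-point-free isometry of order 3 exists), `bridge` to the frozen matrix groups. -/

set_option autoImplicit false

namespace Cfsg.Agent.Small.H1O

open Cfsg.Agent.Geom Module Formed QuadraticMap Matrix

section
variable {V : Type*} [AddCommGroup V] [Module (ZMod 2) V] {Q : QuadraticForm (ZMod 2) V}

/-- Crossed homomorphisms on `Ω`. -/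
def Coc (f : OG Q → V) : Prop :=
  ∀ g ∈ commutator (OG Q), ∀ h ∈ commutator (OG Q), f (g * h) = f g + g.1 (f h)

theorem aa (v : V) : v + v = 0 := by
  rw [← two_smul (ZMod 2), show (2 : ZMod 2) = 0 from rfl, zero_smul]

variable {f : OG Q → V}

theorem Coc.one (hf : Coc f) : f 1 = 0 := by
  have := hf 1 (one_mem _) 1 (one_mem _)
  rw [mul_one] at this
  exact this.trans (aa _)

/-- The zero set of a crossed homomorphism. -/
def K (hf : Coc f) : Subgroup (OG Q) where
  carrier := {g | g ∈ commutator (OG Q) ∧ f g = 0}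
  mul_mem' := fun {a b} ha hb => ⟨mul_mem ha.1 hb.1, by rw [hf a ha.1 b hb.1, ha.2, hb.2, map_zero, add_zero]⟩
  one_mem' := ⟨one_mem _, hf.one⟩
  inv_mem' := fun {a} ha => ⟨inv_mem ha.1, by
    have := hf _ (inv_mem ha.1) a ha.1
    rwa [inv_mul_cancel, hf.one, ha.2, map_zero, add_zero, eq_comm] at this⟩

theorem fix_of (hf : Coc f) {b b' g : OG Q} (hb : b ∈ K hf) (hb' : b' ∈ K hf) (hg : g ∈ commutator (OG Q))
    (e : b * g = g * b') : b.1 (f g) = f g := by
  have h1 := hf b hb.1 g hg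
  rw [e, hf g hg b' hb'.1, hb.2, hb'.2, map_zero, add_zero, zero_add] at h1
  exact h1.symm

theorem principal_of [Finite V] {a : OG Q} (ha : a ∈ commutator (OG Q)) (fp : ∀ w, a.1 w = w → w = 0)
    (H : ∀ (f : OG Q → V) (hf : Coc f), a ∈ K hf → commutator (OG Q) ≤ K hf) (hf : Coc f) :
    ∃ v, ∀ g ∈ commutator (OG Q), f g = g.1 v - v := by
  have hi : Function.Injective fun v : V => a.1 v - v := fun x y e => by
    refine sub_eq_zero.1 (fp _ ?_)
    rw [map_sub, sub_eq_sub_iff_sub_eq_sub]; exact e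
  obtain ⟨v, hv⟩ := Finite.injective_iff_surjective.1 hi (f a)
  have hf' : Coc fun g : OG Q => f g - (g.1 v - v) := fun g hg h hh => by
    simp only [hf g hg h hh, OG.mul_apply, map_sub]; abel
  exact ⟨v, fun g hg => sub_eq_zero.1 (H _ hf' ⟨ha, sub_eq_zero.2 hv.symm⟩ hg).2⟩

theorem refl1 {u : V} (hu : Q u = 1) (x : V) : (refl Q u).1 x = x + polar Q u x • u := by
  rw [refl_apply, hu, inv_one, one_mul, sub_eq_iff_eq_add, add_assoc, aa, add_zero]

theorem polar_self0 (u : V) : polar Q u u = 0 := by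
  rw [polar_self', show (2 : ZMod 2) = 0 from rfl, zero_mul]

/-- `a² + a + 1 = 0`. -/
def T (a : OG Q) : Prop := ∀ v, a.1 (a.1 v) = a.1 v + v

variable {a : OG Q}

theorem T.cube (ha : T a) (v : V) : a.1 (a.1 (a.1 v)) = v := by
  rw [ha (a.1 v), ha v, add_right_comm, aa, zero_add]

theorem T.fp (ha : T a) (w : V) (h : a.1 w = w) : w = 0 := by
  have := ha w
  rwa [h, h, aa] at this

theorem T.pol (ha : T a) {u : V} (hu : Q u = 1) : polar Q (a.1 u) u = 1 := by
  have := OG.map_Q a (a.1 u)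
  rw [ha, quad_add, OG.map_Q, hu] at this
  revert this; generalize polar Q (a.1 u) u = c; revert c; decide

theorem T.comm (ha : T a) {u : V} (hu : Q u = 1) :
    a * (refl Q u * refl Q (a.1 u)) = (refl Q u * refl Q (a.1 u)) * a := by
  have h1 : a.1 (a.1 u) = (refl Q (a.1 u)).1 u := by
    rw [refl1 (by rw [OG.map_Q, hu]), ha.pol hu, one_smul, ha, add_comm]
  have h2 := conj_refl a (a.1 u)
  rw [h1, ← conj_refl (refl Q (a.1 u)) u, refl_inv] at h2
  calc a * (refl Q u * refl Q (a.1 u)) = (a * refl Q u * a⁻¹) * (a * refl Q (a.1 u) * a⁻¹) * a := by group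
    _ = _ := by rw [h2, conj_refl a u, mul_assoc (refl Q (a.1 u)) (refl Q u), refl_mul_cancel]

theorem T.mul (ha : T a) {y : V} (hy : Q y = 1) : T (a * (refl Q y * refl Q (a.1 y))) := fun v => by
  have hc := ha.comm hy
  have hy' : Q (a.1 y) = 1 := by rw [OG.map_Q, hy]
  set x := refl Q y * refl Q (a.1 y) with hx
  have c1 : ∀ w, x.1 (a.1 w) = a.1 (x.1 w) := fun w => by rw [← OG.mul_apply, ← hc, OG.mul_apply]
  have x1 : x.1 y = a.1 y := by
    rw [hx, OG.mul_apply, refl1 hy', ha.pol hy, one_smul, refl1 hy, polar_add_right, polar_self0, zero_add,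
      polar_comm, ha.pol hy, one_smul, add_right_comm, aa, zero_add]
  have x2 : ∃ p q : ZMod 2, x.1 v = v + (p • y + q • a.1 y) :=
    ⟨_, _, by rw [hx, OG.mul_apply, refl1 hy, refl1 hy' v, add_assoc, add_comm (_ • a.1 y)]⟩
  obtain ⟨p, q, e⟩ := x2
  have x3 : x.1 (x.1 v) = x.1 v + a.1 (x.1 v + v) := by
    conv_lhs => rw [e, map_add]
    congr 1
    rw [e, add_right_comm, aa, zero_add, map_add, map_add, map_smul, map_smul, map_smul, map_smul, c1, x1]
  simp only [OG.mul_apply]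
  rw [c1, x3, map_add, map_add, ha.cube, ha, add_assoc, ← add_assoc (x.1 v), aa, zero_add]

variable [FiniteDimensional (ZMod 2) V]

theorem rr (h : (ofQuad Q).Nondeg) {u v : V} (hu : Q u = 1) (hv : Q v = 1) :
    refl Q u * refl Q v ∈ commutator (OG Q) :=
  refl_mul_refl_mem_commutator h (t := 1) (by rw [hv]; decide) one_ne_zero (by rw [hu, hv]; rfl)

theorem T.link (h : (ofQuad Q).Nondeg) (hf : Coc f) (ha : T a) (hK : a ∈ K hf) {u : V} (hu : Q u = 1) :
    refl Q u * refl Q (a.1 u) ∈ K hf :=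
  have := rr h hu (show Q (a.1 u) = 1 by rw [OG.map_Q, hu])
  ⟨this, ha.fp _ (fix_of hf hK hK this (ha.comm hu))⟩

theorem T.link2 (h : (ofQuad Q).Nondeg) (hf : Coc f) (ha : T a) (hK : a ∈ K hf) {y u w : V} (hy : Q y = 1)
    (hu : Q u = 1) (e : (refl Q y).1 ((refl Q (a.1 y)).1 u) = w) : refl Q u * refl Q w ∈ K hf := by
  have h1 := (ha.mul hy).link h hf (mul_mem hK (ha.link h hf hK hy)) hu
  rw [OG.mul_apply, OG.mul_apply, e] at h1
  have h2 := ha.link h hf hK (u := w) (by rw [← e, OG.map_Q, OG.map_Q, hu])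
  have := mul_mem h1 (inv_mem h2)
  rwa [_root_.mul_inv_rev, refl_inv, refl_inv, mul_assoc, refl_mul_cancel] at this

theorem le_of_pol (h : (ofQuad Q).Nondeg) (hx : NotExc Q) {N : Subgroup (OG Q)}
    (H : ∀ u w, Q u = 1 → Q w = 1 → polar Q u w = 1 → refl Q u * refl Q w ∈ N) : commutator (OG Q) ≤ N := by
  have z : ∀ c : ZMod 2, c ≠ 0 → c = 1 := by decide
  refine commutator_le_of_sq h hx fun u w hu hw => ?_
  by_cases e : polar Q u w = 0
  · have := conj_refl (refl Q u) w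
    rw [refl_of_perp e, refl_inv] at this
    rw [pow_two, ← mul_assoc, this, refl_mul_self]; exact one_mem _
  · exact pow_mem (H u w (z _ hu) (z _ hw) (z _ e)) 2

theorem T.le (h : (ofQuad Q).Nondeg) (hx : NotExc Q) (ha : T a) (hf : Coc f) (hK : a ∈ K hf) :
    commutator (OG Q) ≤ K hf := by
  have z : ∀ c : ZMod 2, c ≠ 0 → c = 1 := by decide
  refine le_of_pol h hx fun u w hu hw e => ?_
  have hz : Q (u + w) = 1 := by rw [quad_add, hu, hw, e]; rfl
  have p1 : polar Q (u + w) u = 1 := by rw [polar_add_left, polar_self0, zero_add, polar_comm, e]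
  have p2 : polar Q (u + w) w = 1 := by rw [polar_add_left, polar_self0, add_zero, e]
  by_cases e2 : polar Q (a.1 (u + w)) u = 0
  · refine ha.link2 h hf hK hz hu ?_
    rw [refl_of_perp e2, refl1 hz, p1, one_smul, ← add_assoc, aa, zero_add]
  · have := ha.link2 h hf hK (y := a.1 (a.1 (u + w))) (w := u) (by rw [OG.map_Q, OG.map_Q, hz]) hw (by
      rw [ha.cube, refl1 hz, p2, one_smul, add_comm u w, ← add_assoc, aa, zero_add, refl_of_perp]
      rw [add_comm w u, ha, polar_add_left, z _ e2, p1]; rfl)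
    simpa only [_root_.mul_inv_rev, refl_inv] using inv_mem this

theorem mem_of_odd (h : (ofQuad Q).Nondeg) (hx : NotExc Q) (hn : 1 ≤ finrank (ZMod 2) V) {b : OG Q}
    (e : a = b * b) : a ∈ commutator (OG Q) :=
  e ▸ Subgroup.mul_self_mem_of_index_two (index_commutator_even h hx rfl hn) b

theorem three [Finite V] (h : (ofQuad Q).Nondeg) (hx : NotExc Q) (hn : 1 ≤ finrank (ZMod 2) V) (ha : T a)
    (hf : Coc f) : ∃ v, ∀ g ∈ commutator (OG Q), f g = g.1 v - v :=
  principal_of (mem_of_odd h hx hn (b := a * a) (OG.ext fun v => by simp only [OG.mul_apply, ha.cube]))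
    ha.fp (fun _ hf hK => ha.le h hx hf hK) hf

end

section
variable {ι : Type} [Fintype ι] [DecidableEq ι] {Q : QuadraticForm (ZMod 2) (ι → ZMod 2)}

theorem exists_og (A B : Matrix ι ι (ZMod 2)) (h : A * B = 1) (hq : ∀ v, Q (A *ᵥ v) = Q v) :
    ∃ a : OG Q, omat a = A :=
  ⟨isometryEquiv Q ⟨⟨A, B, h, mul_eq_one_comm.1 h⟩, mem_isometryGroup.2 hq⟩, omat_isometryEquiv _⟩

theorem bridge (H : ∀ f : OG Q → (ι → ZMod 2), Coc f → ∃ v, ∀ g ∈ commutator (OG Q), f g = g.1 v - v)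
    {q : (ι → ZMod 2) → ZMod 2} (e : ⇑Q = q) (f : Omega (ZMod 2) q → (ι → ZMod 2))
    (hf : ∀ g h : Omega (ZMod 2) q, f (g * h) = f g + (g.1.1 : Matrix ι ι (ZMod 2)) *ᵥ f h) :
    ∃ v, ∀ g : Omega (ZMod 2) q, f g = (g.1.1 : Matrix ι ι (ZMod 2)) *ᵥ v - v := by
  subst e
  classical
  have m : ∀ {g : OG Q}, g ∈ commutator (OG Q) → (isometryEquiv Q).symm g ∈ Omega (ZMod 2) ⇑Q := fun hg => by
    rwa [mem_Omega_iff, MulEquiv.apply_symm_apply]
  obtain ⟨v, hv⟩ := H (fun g => if hg : g ∈ commutator (OG Q) then f ⟨_, m hg⟩ else 0) fun g hg h hh => by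
    simp only [dif_pos hg, dif_pos hh, dif_pos (mul_mem hg hh)]
    rw [← isometryEquiv_symm_mulVec, ← hf ⟨_, m hg⟩ ⟨_, m hh⟩]
    exact congrArg f (Subtype.ext (map_mul _ _ _))
  refine ⟨v, fun g => ?_⟩
  have hg := (mem_Omega_iff g.1).1 g.2
  have := hv _ hg
  rw [dif_pos hg, isometryEquiv_apply] at this
  rw [← this]
  exact congrArg f (Subtype.ext (MulEquiv.symm_apply_apply _ _).symm)

end

end Cfsg.Agent.Small.H1O
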