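import Cfsg.Agent.Small.Cls3

/-! Central series of `2`-groups on letters (helper9, after `Comp.Pc`): letter `s+k` is `t_k`. `P2` (the terms), `v2`
(coded exponent vectors), `Pc2`/`chkPc2`, the cover tree `C2` (`C2.sound`), `cover2` for models. -/

set_option autoImplicit false

namespace Cfsg.Agent.Small

open Known Comp Subgroup

/-- the word with binary exponent vector `v` in `n` letters from `s` on. -/
def vw2 (n : ℕ) : ℕ → ℕ → List ℕ :=
  Nat.rec (motive := fun _ => ℕ → ℕ → List ℕ) (fun _ _ => [])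
    (fun _ ih s v => force (Nat.div v 2) fun v' => force (Nat.succ s) fun s' =>
      Nat.rec (motive := fun _ => List ℕ) (ih s' v') (fun _ _ => s :: ih s' v') (Nat.mod v 2)) n

/-- the word from level `k` on. -/
def v2 (s n k v : ℕ) : List ℕ := force (Nat.add s k) fun l => vw2 (Nat.sub n k) l v

theorem vw2_mem (n : ℕ) : ∀ s v, ∀ l ∈ vw2 n s v, s ≤ l ∧ l < s + n := by
  induction n with
  | zero => intro s v l h; cases h
  | succ n ih =>
    intro s v l h
    have : vw2 (n + 1) s v = force (Nat.div v 2) fun v' => force (Nat.succ s) fun s' =>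
      Nat.rec (motive := fun _ => List ℕ) (vw2 n s' v') (fun _ _ => s :: vw2 n s' v') (Nat.mod v 2) := rfl
    rw [this, force_eq, force_eq] at h
    have k : l ∈ vw2 n s.succ (Nat.div v 2) → s ≤ l ∧ l < s + (n + 1) := fun h => by
      have := ih _ _ l h; omega
    rcases e : Nat.mod v 2 with _ | d <;> rw [e] at h
    · exact k h
    · rcases List.mem_cons.1 h with rfl | h
      · omega
      · exact k h

variable {G : Type*} [Group G] (x : ℕ → G) (s n : ℕ)

def P2 (k : ℕ) : Subgroup G := closure {g | ∃ j, k ≤ j ∧ j < n ∧ x (s + j) = g}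

structure Pc2 : Prop where
  sq : ∀ k < n, x (s + k) ^ 2 ∈ P2 x s n (k + 1)
  comm : ∀ k < n, ∀ j < k, x (s + j) * x (s + k) * (x (s + j))⁻¹ * (x (s + k))⁻¹ ∈ P2 x s n (k + 1)

def chkPc2 (eq : List ℕ → List ℕ → Bool) (s n : ℕ) (cw : ℕ → ℕ → ℕ) (k : ℕ) : Bool :=
  force (Nat.add s k) fun l => band (eq [l, l] (v2 s n (Nat.succ k) (cw k k)))
    (allLt k fun j => force (Nat.add s j) fun l' => eq [l', l] (appendL (v2 s n (Nat.succ k) (cw k j)) [l, l']))

variable {x s n} {eq : List ℕ → List ℕ → Bool}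

theorem mem_P2 {k j : ℕ} (h1 : k ≤ j) (h2 : j < n) : x (s + j) ∈ P2 x s n k := subset_closure ⟨j, h1, h2, rfl⟩

theorem P2_le {k : ℕ} {H : Subgroup G} (h : ∀ j, k ≤ j → j < n → x (s + j) ∈ H) : P2 x s n k ≤ H :=
  (closure_le _).2 fun _ ⟨j, h1, h2, e⟩ => e ▸ h j h1 h2

theorem P2_anti {j k : ℕ} (h : j ≤ k) : P2 x s n k ≤ P2 x s n j := P2_le fun _ h1 h2 => mem_P2 (h.trans h1) h2

theorem P2_bot {k : ℕ} (h : n ≤ k) : P2 x s n k = ⊥ := eq_bot_iff.2 (P2_le fun j h1 h2 => by omega)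

theorem v2_mem (k v : ℕ) : W x (v2 s n k v) ∈ P2 x s n k := W_mem _ fun l hl => by
  rw [v2, force_eq] at hl
  have := vw2_mem _ _ _ l hl
  simp only [Nat.add_eq, Nat.sub_eq] at this
  rw [show l = s + (l - s) by omega]
  exact mem_P2 (by omega) (by omega)

theorem pc2_of_chk (ho : Or x eq) {cw : ℕ → ℕ → ℕ} (h' : ∀ k < n, chkPc2 eq s n cw k = true) : Pc2 x s n := by
  simp only [chkPc2, force_eq, band_eq, Bool.and_eq_true, allLt_iff, appendL_eq] at h'
  refine ⟨fun k hk => ?_, fun k hk j hj => ?_⟩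
  · have := ho _ _ (h' k hk).1
    rw [W_cons, W_cons, W_nil, mul_one] at this
    rw [pow_two]
    exact this ▸ v2_mem _ _
  · have := ho _ _ ((h' k hk).2 j hj)
    simp only [W_append, W_cons, W_nil, mul_one] at this
    have e : ∀ a b c : G, a * b = c * (b * a) → a * b * a⁻¹ * b⁻¹ = c := fun a b c e => by rw [e]; group
    exact e _ _ _ this ▸ v2_mem _ _

namespace Pc2
variable [Finite G] (h : Pc2 x s n)
include h

theorem main (d : ℕ) : ∀ k, k + d = n → ∀ g ∈ P2 x s n 0, g ∈ normalizer (P2 x s n k : Set G) ∧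
    ∀ y ∈ P2 x s n k, g * y * g⁻¹ * y⁻¹ ∈ P2 x s n (k + 1) := by
  induction d with
  | zero =>
    intro k e g _
    rw [P2_bot (k := k) (by omega)]
    exact ⟨mem_normalizer_fintype (by simp), by simp⟩
  | succ d ih =>
    intro k e g hg
    have ih := ih (k + 1) (by omega)
    have h1 : ∀ g ∈ P2 x s n 0, g ∈ cmL (P2 x s n (k + 1)) (x (s + k)) := P2_le fun j _ hj =>
      ⟨(ih _ (mem_P2 j.zero_le hj)).1, by
        rcases lt_trichotomy j k with c | rfl | c
        · exact h.comm k (by omega) j c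
        · simp
        · exact cm_symm (P2_anti (by omega) (h.comm j hj k c))⟩
    have h2 : ∀ y ∈ P2 x s n k, y ∈ cmL (P2 x s n (k + 1)) g := P2_le fun j hj hn =>
      ⟨(ih _ (mem_P2 j.zero_le hn)).1, cm_symm (by
        rcases hj.eq_or_lt with rfl | c
        · exact (h1 g hg).2
        · exact mul_mem (conj_mem_of_norm (ih g hg).1 (mem_P2 c hn)) (inv_mem (mem_P2 c hn)))⟩
    refine ⟨mem_normalizer_fintype fun y hy => ?_, fun y hy => cm_symm (h2 y hy).2⟩
    simpa using mul_mem (P2_anti k.le_succ (cm_symm (h2 y hy).2)) hy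

theorem norm {g : G} (hg : g ∈ P2 x s n 0) (k : ℕ) : g ∈ normalizer (P2 x s n k : Set G) := by
  rcases le_total k n with c | c
  · exact (h.main (n - k) k (by omega) g hg).1
  · rw [P2_bot c]; exact mem_normalizer_fintype (by simp)

theorem cen {g y : G} (hg : g ∈ P2 x s n 0) {k : ℕ} (hy : y ∈ P2 x s n k) : g * y * g⁻¹ * y⁻¹ ∈ P2 x s n (k + 1) := by
  rcases le_total k n with c | c
  · exact (h.main (n - k) k (by omega) g hg).2 y hy
  · rw [P2_bot c, mem_bot] at hy; simp [hy]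

theorem nf {k : ℕ} (hk : k < n) {y : G} (hy : y ∈ P2 x s n k) :
    y ∈ P2 x s n (k + 1) ∨ y * (x (s + k))⁻¹ ∈ P2 x s n (k + 1) := by
  have t0 := h.norm (mem_P2 (x := x) (s := s) k.zero_le hk) (k + 1)
  induction hy using closure_induction with
  | mem y hy =>
    obtain ⟨j, h1, h2, rfl⟩ := hy
    rcases h1.eq_or_lt with rfl | c
    · exact .inr (by simp)
    · exact .inl (mem_P2 c h2)
  | one => exact .inl (one_mem _)
  | mul a b _ _ ha hb =>
    rcases ha with ha | ha <;> rcases hb with hb | hb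
    · exact .inl (mul_mem ha hb)
    · exact .inr (by simpa [mul_assoc] using mul_mem ha hb)
    · exact .inr (by simpa [mul_assoc] using mul_mem ha (conj_mem_of_norm t0 hb))
    · exact .inl (by simpa [mul_assoc, pow_two] using mul_mem (mul_mem ha (conj_mem_of_norm t0 hb)) (h.sq k hk))
  | inv a _ ha =>
    rcases ha with ha | ha
    · exact .inl (inv_mem ha)
    · refine .inr ?_
      convert mul_mem (conj_mem_of_norm (inv_mem t0) (inv_mem ha)) (inv_mem (h.sq k hk)) using 1
      simp only [pow_two]; group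

theorem sq_mem {k : ℕ} (hk : k < n) {c y : G} (hc : c ∈ P2 x s n 0) (hy : y ∈ P2 x s n k) :
    (y * c) ^ 2 * (c ^ 2)⁻¹ ∈ P2 x s n (k + 1) := by
  have y0 := P2_anti k.zero_le hy
  have t0 := mem_P2 (x := x) (s := s) k.zero_le hk
  have : y ^ 2 ∈ P2 x s n (k + 1) := by
    rcases h.nf hk hy with e | e
    · exact pow_mem e 2
    · convert mul_mem (mul_mem e (conj_mem_of_norm (h.norm t0 _) e)) (h.sq k hk) using 1
      simp only [pow_two]; group
  convert mul_mem (conj_mem_of_norm (h.norm y0 _) (h.cen hc hy)) this using 1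
  simp only [pow_two]; group

theorem card_step {k : ℕ} (hk : k < n) : Nat.card (P2 x s n k) ≤ 2 * Nat.card (P2 x s n (k + 1)) := by
  have : Function.Surjective fun p : Fin 2 × P2 x s n (k + 1) => (⟨p.2 * x (s + k) ^ (p.1 : ℕ),
      mul_mem (P2_anti k.le_succ p.2.2) (pow_mem (mem_P2 le_rfl hk) _)⟩ : P2 x s n k) := fun y => by
    rcases h.nf hk y.2 with e | e
    · exact ⟨(0, ⟨_, e⟩), Subtype.ext (by simp)⟩
    · exact ⟨(1, ⟨_, e⟩), Subtype.ext (by simp)⟩
  simpa using Nat.card_le_card_of_surjective _ this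

theorem card_le' (j d : ℕ) (hd : j + d ≤ n) : Nat.card (P2 x s n j) ≤ 2 ^ d * Nat.card (P2 x s n (j + d)) := by
  induction d with
  | zero => simp
  | succ d ih =>
    refine (ih (by omega)).trans ?_
    rw [pow_succ, mul_assoc]
    exact Nat.mul_le_mul_left _ (h.card_step (by omega))

theorem card_le (k : ℕ) : Nat.card (P2 x s n k) ≤ 2 ^ (n - k) := by
  rcases le_total k n with c | c
  · simpa [Nat.add_sub_cancel' c, P2_bot] using h.card_le' k (n - k) (by omega)
  · rw [P2_bot c, card_bot]; exact Nat.one_le_pow _ _ two_pos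

theorem card_eq (h0 : 2 ^ n ≤ Nat.card (P2 x s n 0)) {k : ℕ} (hk : k ≤ n) : Nat.card (P2 x s n k) = 2 ^ (n - k) := by
  refine (h.card_le k).antisymm (Nat.le_of_mul_le_mul_left ?_ (pow_pos two_pos k))
  rw [← pow_add, Nat.add_sub_cancel' hk]
  simpa using h0.trans (h.card_le' 0 k (by omega))

theorem not_mem (h0 : 2 ^ n ≤ Nat.card (P2 x s n 0)) {k : ℕ} (hk : k < n) : x (s + k) ∉ P2 x s n (k + 1) := fun c => by
  have := card_le_of_le (P2_le (H := P2 x s n (k + 1)) (k := k) fun j h1 h2 => by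
    rcases h1.eq_or_lt with rfl | e
    · exact c
    · exact mem_P2 e h2)
  rw [h.card_eq h0 hk.le, h.card_eq h0 hk, Nat.pow_le_pow_iff_right (by norm_num)] at this
  omega

end Pc2

inductive C2 : Type
  | leaf (a : ℕ) : C2
  | mer (h r : ℕ) (c : C2) : C2
  | sp (c0 c1 : C2) : C2
  | pr (r : ℕ) : C2

section
variable (eq : List ℕ → List ℕ → Bool) (s n : ℕ)

def mer2 (h r : ℕ) (ih : ℕ → List ℕ → Bool) (k : ℕ) (c : List ℕ) : Bool :=
  band (Nat.blt k n) (force (Nat.succ k) fun k' => band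
    (eq (appendL (v2 s n 0 h) (Nat.add s k :: c)) (appendL (v2 s n k' r) (appendL c (v2 s n 0 h)))) (ih k' c))

def sp2 (i0 i1 : ℕ → List ℕ → Bool) (k : ℕ) (c : List ℕ) : Bool :=
  band (Nat.blt k n) (force (Nat.succ k) fun k' => force (Nat.add s k) fun l => band (i0 k' c) (i1 k' (l :: c)))

def pr2 (r k : ℕ) (c : List ℕ) : Bool :=
  band (Nat.blt k n) (eq (appendL c c) (appendL (v2 s n (Nat.succ k) r) [Nat.add s k]))

/-- the check of a tree. -/
noncomputable def C2.chk (lf : ℕ → List ℕ → ℕ → Bool) (T : C2) : ℕ → List ℕ → Bool :=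
  C2.rec (motive := fun _ => ℕ → List ℕ → Bool) (fun a k c => lf k c a) (fun h r _ ih => mer2 eq s n h r ih)
    (fun _ _ i0 i1 => sp2 s n i0 i1) (fun r => pr2 eq s n r) T
end

theorem C2.sound [Finite G] (ho : Or x eq) (h : Pc2 x s n) (h0 : 2 ^ n ≤ Nat.card (P2 x s n 0)) {Good : G → Prop}
    (hc : ∀ g z, Good (g * z * g⁻¹) → Good z) (hp : ∀ z, z ^ 2 ≠ 1 → Good z)
    {lf : ℕ → List ℕ → ℕ → Bool} (hl : ∀ k c a, lf k c a = true → Cl (P2 x s n k) Good (W x c))
    (T : C2) : ∀ k c, W x c ∈ P2 x s n 0 → T.chk eq s n lf k c = true → Cl (P2 x s n k) Good (W x c) := by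
  have split : ∀ {k c}, k < n → Cl (P2 x s n (k + 1)) Good c → Cl (P2 x s n (k + 1)) Good (x (s + k) * c) →
      Cl (P2 x s n k) Good c := fun hk H0 H1 z hz => (h.nf hk hz).elim (H0 z) fun e => H1 z (by
        rwa [mul_inv_rev, ← mul_assoc])
  induction T with
  | leaf a => exact fun k c _ h2 => hl k c a h2
  | mer g r T ih =>
    intro k c h1 h2
    change mer2 eq s n g r (C2.chk eq s n lf _) k c = true at h2
    simp only [mer2, force_eq, band_eq, Bool.and_eq_true, nblt, appendL_eq] at h2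
    obtain ⟨hk, e, h2⟩ := h2
    have e := ho _ _ e
    simp only [W_append, W_cons] at e
    have c0 := ih _ _ h1 h2
    exact split hk c0 (c0.link (h.norm (v2_mem 0 g) _) (hc _) (link_eq e ▸ v2_mem (k + 1) r))
  | sp _ _ i0 i1 =>
    intro k c h1 h2
    change sp2 s n (C2.chk eq s n lf _) (C2.chk eq s n lf _) k c = true at h2
    simp only [sp2, force_eq, band_eq, Bool.and_eq_true, nblt] at h2
    obtain ⟨hk, e0, e1⟩ := h2
    exact split hk (i0 _ _ h1 e0) (W_cons x _ c ▸ i1 _ _ (by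
      rw [W_cons]; exact mul_mem (mem_P2 k.zero_le hk) h1) e1)
  | pr r =>
    intro k c h1 h2 z hz
    change pr2 eq s n r k c = true at h2
    simp only [pr2, band_eq, Bool.and_eq_true, nblt, appendL_eq] at h2
    refine hp z fun z2 => h.not_mem h0 h2.1 ?_
    have e' := ho _ _ h2.2
    rw [W_append, W_append, W_cons, W_nil, mul_one, ← pow_two] at e'
    have := h.sq_mem h2.1 h1 hz
    rwa [inv_mul_cancel_right, z2, one_mul, inv_mem_iff, e', mul_mem_cancel_left (v2_mem _ _)] at this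

/-- leaves: conjugation to a listed word, or the coset is the first term of the series (code `1`). -/
def lf2 (eq : List ℕ → List ℕ → Bool) (n : ℕ) (rs : List (List ℕ)) (k : ℕ) (c : List ℕ) (a : ℕ) : Bool :=
  force (Nat.div a 2) fun a' => Nat.rec (motive := fun _ => Bool)
    (band (Nat.ble n k) (eq (appendL (decV 128 99 (Nat.div a' 32)) c)
      (appendL (nthL [] rs (Nat.mod a' 32)) (decV 128 99 (Nat.div a' 32)))))
    (fun _ _ => band (Nat.beq k 1) (isNil c)) (Nat.mod a 2)

/-- involutions outside the normal subgroup `L` (take `L = ⊥` for all of them). -/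
theorem cover2 {Γ : Type*} [Group Γ] {φ : Γ →* Equiv.Perm ℕ} {N k m : ℕ} {y : ℕ → Γ} {act : ℕ → ℕ → ℕ} {B : List ℕ}
    (M : Mdl φ N k m y act B) {cw : ℕ → ℕ → ℕ} (h' : ∀ j < n, chkPc2 (eqB act B) s n cw j = true) {r : ℕ}
    (hG : m = 2 ^ n * r) (hr : ¬ 2 ∣ r) (ws : List ℕ) (B' : List ℕ)
    (e : band (allL B' fun b => Nat.blt b N) (Nat.ble (Nat.pow 2 n)
      (chainL (fun j => actW act (nthL [] (mapL (v2 s n 0) ws) j)) (fun a => a) (Nat.succ N) B' (List.range (lenL ws)))) = true)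
    {L : Subgroup Γ} [L.Normal] {rs : List (List ℕ)} (T : C2) {b : Bool} (hL : b = true → ∀ j, 1 ≤ j → j < n → y (s + j) ∈ L)
    (e' : T.chk (eqB act B) s n (fun k c a => band (bor b (Nat.beq (Nat.mod a 2) 0)) (lf2 (eqB act B) n rs k c a)) 0 [] = true)
    (z : Γ) (h2 : z ^ 2 = 1) (h1 : z ∉ L) : ∃ i < rs.length, IsConj z (W y (nthL [] rs i)) := by
  let := actOf φ
  have := M.finite
  have : Fact (Nat.Prime 2) := ⟨Nat.prime_two⟩
  have ho : Or y (eqB act B) := fun _ _ => M.eq
  have hp := pc2_of_chk ho h'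
  rw [band_eq, Bool.and_eq_true, nble] at e
  have h0 : 2 ^ n ≤ Nat.card (P2 y s n 0) := e.2.trans (chainL_le_card (M.hy.words _) (isCanon_PtN N).func
    (isCanon_PtN N).canon B' (exists_PtN e.1) _ _ fun c _ => ⟨_, by
      rcases nthL_mem_or [] (mapL (v2 s n 0) ws) c with k | k
      · rw [mapL_eq] at k ⊢
        obtain ⟨v, -, k⟩ := List.mem_map.1 k
        simp only [← k]; exact v2_mem 0 v
      · simp only [k]; exact one_mem _, rfl⟩)
  have hc : ∀ g z, (fun z : Γ => z ^ 2 = 1 → z ∉ L → ∃ i, IsConj z (W y (nthL [] rs i))) (g * z * g⁻¹) →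
      (fun z : Γ => z ^ 2 = 1 → z ∉ L → ∃ i, IsConj z (W y (nthL [] rs i))) z := fun g z h a c =>
    let ⟨i, h⟩ := h (by rw [conj_pow, a, mul_one, mul_inv_cancel]) fun k => c (by
      simpa [mul_assoc] using ‹L.Normal›.conj_mem _ k g⁻¹)
    ⟨i, (isConj_iff.2 ⟨g, rfl⟩ : IsConj z _).trans h⟩
  have k := C2.sound (Good := fun z => z ^ 2 = 1 → z ∉ L → ∃ i, IsConj z (W y (nthL [] rs i))) ho hp h0 hc (fun z a c => absurd c a) (fun k c a e => ?_) T 0 [] (one_mem _) e'
  · obtain ⟨u, hu⟩ := exists_conj_le (hp.card_eq h0 n.zero_le) (M.card.trans hG) hr (X := zpowers z) fun w =>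
      ⟨1, Subtype.ext (by
        obtain ⟨i, e⟩ := mem_zpowers_iff.1 w.2
        rw [coe_pow, ← e, pow_one, ← zpow_natCast, ← zpow_mul, mul_comm, zpow_mul, zpow_natCast, h2, one_zpow, coe_one])⟩
    obtain ⟨i, c⟩ := hc u z (k _ (by simpa using hu z (mem_zpowers z))) h2 h1
    refine ⟨i, not_le.1 fun k => h1 ?_, c⟩
    rw [nthL_eq, List.getD_eq_default _ _ k, W_nil, isConj_one_left] at c
    exact c ▸ one_mem _
  · rw [band_eq, Bool.and_eq_true, lf2, force_eq] at e
    obtain ⟨e0, e⟩ := e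
    generalize Nat.div a 2 = a' at e
    rcases hm : Nat.mod a 2 with _ | t <;> rw [hm] at e e0
    · simp only [Nat.rec_zero, band_eq, Bool.and_eq_true, nble, appendL_eq] at e
      intro z hz _ _
      rw [P2_bot e.1, mem_bot, mul_inv_eq_one] at hz
      have := ho _ _ e.2
      rw [W_append, W_append] at this
      exact ⟨_, isConj_iff.2 ⟨W y (decV 128 99 (Nat.div a' 32)), by rw [hz, this, mul_inv_cancel_right]⟩⟩
    · change band _ _ = true at e
      rw [band_eq, Bool.and_eq_true, nbeq] at e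
      obtain rfl : c = [] := by cases c; rfl; cases e.2
      intro z hz _ c
      refine absurd (P2_le (hL (by simpa using e0)) ?_) c
      simpa [e.1] using hz

end Cfsg.Agent.Small
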