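import Cfsg.Agent.Small.Cls3
import Cfsg.Agent.Invol.Dihedral

/-! Classes of subgroups of order `3` of `L` and of `L ⋊ S₃` from a table of class functions (helper9): `tri`. -/

set_option autoImplicit false

namespace Cfsg.Agent.Small

open Subgroup SemidirectProduct

theorem cj3_inl {L D : Type*} [Group L] [Group D] {ψ : D →* MulAut L} {a b : L}
    (h : Cj3 (inl a : L ⋊[ψ] D) (inl b)) : ∃ d, Cj3 (ψ d a) b := by
  obtain ⟨g, h⟩ := h
  have e : g * inl a * g⁻¹ = inl (g.left * ψ g.right a * g.left⁻¹) := by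
    conv_lhs => rw [← inl_left_mul_inr_right g]
    rw [map_mul, map_mul, inl_aut, map_inv, map_inv]
    group
  rw [e, ← map_inv] at h
  exact ⟨g.right, g.left, h.imp (fun k => inl_injective k) fun k => inl_injective k⟩

theorem tri {L D : Type*} [Group L] [Group D] (ψ : D →* MulAut L) (f : L → ℕ) (hf : ∀ z r, Cj3 z r → f z = f r)
    {m n : ℕ} (ρ : Fin m → L) (c : Fin m → D → ℕ) (hc : ∀ i d, f (ψ d (ρ i)) = c i d) (ι : Fin n → Fin m) (κ : Fin n → D)
    (hcov : ∀ z, z ^ 3 = 1 → z ≠ 1 → ∃ k, Cj3 z (ψ (κ k) (ρ (ι k)))) (hρ : ∀ i, ρ i ^ 3 = 1 ∧ ρ i ≠ 1)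
    (h13 : ∀ k l, (∀ d, c (ι k) (d * κ k) = c (ι l) (d * κ l)) → k = l)
    (h7 : ∀ i j d0, (∀ d, c i (d * d0) = c j d) → i = j)
    (h1 : ∀ d0, (∀ i d d', c i (d * d0 * d') = c i (d * d')) → d0 = 1) :
    C3 (⊤ : Subgroup L) n ∧ C3 (inl : L →* L ⋊[ψ] D).range m ∧
      centralizer ((inl : L →* L ⋊[ψ] D).range : Set (L ⋊[ψ] D)) ≤ (inl : L →* L ⋊[ψ] D).range := by
  have key : ∀ {i j a b}, Cj3 (ψ a (ρ i)) (ψ b (ρ j)) → ∀ d, c i (d * a) = c j (d * b) := fun h d => by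
    rw [← hc, ← hc, map_mul, map_mul]
    exact hf _ _ (h.map (ψ d).toMonoidHom)
  refine ⟨⟨fun k => ψ (κ k) (ρ (ι k)), fun k => ⟨trivial, by rw [← map_pow, (hρ _).1, map_one], by
    simpa using (hρ _).2⟩, fun k l h => h13 k l (key h), fun z _ => hcov z⟩, ⟨fun i => inl (ρ i), fun i => ⟨⟨_, rfl⟩, by
      rw [← map_pow, (hρ _).1, map_one], fun e => (hρ i).2 (inl_injective (e.trans (map_one _).symm))⟩,
    fun i j h => ?_, ?_⟩, fun g hg => ?_⟩
  · obtain ⟨d, h⟩ := cj3_inl h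
    exact h7 i j d fun e => by simpa using key (b := 1) (by simpa using h) e
  · rintro _ ⟨z, rfl⟩ h3 h1
    obtain ⟨k, h⟩ := hcov z (inl_injective (by rw [map_pow, h3, map_one])) (by rintro rfl; exact h1 (map_one _))
    refine ⟨ι k, (h.map inl).trans ⟨(inr (κ k))⁻¹, .inl ?_⟩⟩
    rw [inl_aut, map_inv]; group
  · rw [range_inl_eq_ker_rightHom]
    refine h1 g.right fun i d d' => ?_
    rw [mul_assoc]
    refine key ⟨g.left, .inl (inl_injective (φ := ψ) ?_)⟩ d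
    rw [map_mul ψ, MulAut.mul_apply, map_mul, map_mul, inl_aut, map_inv, map_inv]
    conv_rhs => rw [← mul_inv_cancel_right (inl (ψ d' (ρ i))) g, hg _ ⟨ψ d' (ρ i), rfl⟩, ← inl_left_mul_inr_right g]
    group

/-- two endomorphisms with the relations of `S₃`. -/
theorem exists_d3 {L : Type*} [Group L] (α β : L →* L) (h3 : α.comp (α.comp α) = .id L) (h2 : β.comp β = .id L)
    (h : β.comp α = α.comp (α.comp β)) : ∃ ψ : DihedralGroup 3 →* MulAut L, ∀ z, ψ (.r 0) z = z ∧ ψ (.r 1) z = α z ∧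
      ψ (.r 2) z = α (α z) ∧ ψ (.sr 0) z = β z ∧ ψ (.sr 1) z = β (α z) ∧ ψ (.sr 2) z = β (α (α z)) := by
  let τ : MulAut L := α.toMulEquiv (α.comp α) h3 h3
  let σ : MulAut L := β.toMulEquiv β h2 h2
  have e2 : σ * σ = 1 := MulEquiv.ext fun z => DFunLike.congr_fun h2 z
  have e3 : τ ^ 3 = 1 := MulEquiv.ext fun z => by rw [pow_three]; exact DFunLike.congr_fun h3 z
  have e : σ * τ * σ⁻¹ = τ⁻¹ := by
    rw [mul_inv_eq_iff_eq_mul]
    exact MulEquiv.ext fun z => DFunLike.congr_fun h z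
  refine ⟨Invol.dihedralHom e2 e e3, fun z => ?_⟩
  have a := Invol.dihedralHom_r e2 e e3
  have b := Invol.dihedralHom_sr e2 e e3
  exact ⟨DFunLike.congr_fun (a 0) z, DFunLike.congr_fun ((a 1).trans (zpow_one _)) z,
    DFunLike.congr_fun ((a 2).trans (zpow_two _)) z, DFunLike.congr_fun ((b 0).trans (mul_one σ)) z,
    DFunLike.congr_fun ((b 1).trans (congrArg (σ * ·) (zpow_one τ))) z,
    DFunLike.congr_fun ((b 2).trans (congrArg (σ * ·) (zpow_two τ))) z⟩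

end Cfsg.Agent.Small
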